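import Mathlib
import Cfsg.Agent.H958.Crit_mg
import Cfsg.Agent.H958.Invol
import Cfsg.Agent.H955.QMinus
set_option linter.all false

-- part: H958/ArithFin
section
/-!
# Arithmetic of the criterion in the form used in the statements
-/

set_option autoImplicit false

namespace Cfsg.Agent.H958

theorem div_sub' {n m c : ℕ} (hc : 0 < c) (h : m % c = n % c) (hmn : m ≤ n) :
    (n - m) / c = n / c - m / c ∧ m / c ≤ n / c := by
  refine ⟨?_, Nat.div_le_div_right hmn⟩
  have h1 := Nat.div_add_mod n c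
  have h2 := Nat.div_add_mod m c
  have h3 : n - m = c * (n / c - m / c) := by
    rw [Nat.mul_sub]; omega
  rw [h3, Nat.mul_div_cancel_left _ hc]

theorem div_add' {n m c : ℕ} (hc : 0 < c) (h : m % c = n % c) :
    (n + m - 2 * (n % c)) / c = n / c + m / c := by
  have h1 := Nat.div_add_mod n c
  have h2 := Nat.div_add_mod m c
  have h3 : n + m - 2 * (n % c) = c * (n / c + m / c) := by
    rw [mul_add]; omega
  rw [h3, Nat.mul_div_cancel_left _ hc]

/-- the parity of `(n - m) / c` -/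
theorem even_div_sub {n m c : ℕ} (hc : 0 < c) (h : m % c = n % c) (hmn : m ≤ n) :
    Even ((n - m) / c) ↔ (Even (n / c) ↔ Even (m / c)) := by
  obtain ⟨h1, h2⟩ := div_sub' hc h hmn
  rw [h1, Nat.even_sub h2]

theorem even_div_add {n m c : ℕ} (hc : 0 < c) (h : m % c = n % c) :
    Even ((n + m - 2 * (n % c)) / c) ↔ (Even (n / c) ↔ Even (m / c)) := by
  rw [div_add' hc h, Nat.even_add]

end Cfsg.Agent.H958
end

-- part: H958/Glue
section
/-!
# Glue for the statements
-/

set_option autoImplicit false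

namespace Cfsg.Agent.H958

open Module QuadraticMap Cfsg.Agent.LieClassical.OrthCore Cfsg.Agent.LieClassical.OrthTrans
  Cfsg.Agent.H955

section Det

variable {ι : Type} [Fintype ι] [DecidableEq ι] {F : Type*} [Field F]

theorem det_omegaGL {Q : (ι → F) → F} {g : GL ι F} (hg : g ∈ Cfsg.Geo.omegaGL Q) :
    (g : Matrix ι ι F).det = 1 := by
  obtain ⟨y, hy, rfl⟩ := hg
  have h1 := Abelianization.commutator_subset_ker
    ((Matrix.GeneralLinearGroup.det : GL ι F →* Fˣ).comp (Cfsg.isometryGroup F Q).subtype) hy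
  have h2 := congrArg Units.val (MonoidHom.mem_ker.1 h1)
  exact h2

theorem not_neg_of_omegaGL (hodd : Odd (Fintype.card ι)) (h2 : (2 : F) ≠ 0) {Q : (ι → F) → F}
    {g : GL ι F} (hg : g ∈ Cfsg.Geo.omegaGL Q) : (g : Matrix ι ι F) ≠ (-1 : F) • (1 : Matrix ι ι F) := by
  intro h
  have h1 := det_omegaGL hg
  rw [h, Matrix.det_smul, Matrix.det_one, mul_one, hodd.neg_one_pow] at h1
  apply h2
  have h3 : (2 : F) = 1 + 1 := by norm_num
  rw [h3]
  nth_rewrite 1 [← h1]
  exact neg_add_cancel 1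

end Det

section Field

variable {F : Type*} [Field F] [Fintype F]

theorem ii_eq {q : ℕ} (hq : Fintype.card F = q) (r : ℕ) : ii F r = orderOf (q : ZMod r) := by
  rw [ii, Nat.card_eq_fintype_card, hq]

theorem bk_eq' {q : ℕ} (hq : Fintype.card F = q) {r i c : ℕ} (hi : i = orderOf (q : ZMod r))
    (hc : c = if Even i then i else 2 * i) : bk F r = c := by
  rw [bk, ii_eq hq, ← hi, hc]

omit [Fintype F] in
theorem cast_ne_zero {p r : ℕ} [hp : Fact p.Prime] [CharP F p] [hr : Fact r.Prime] (h : r ≠ p) :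
    (r : F) ≠ 0 := by
  intro h0
  rw [CharP.cast_eq_zero_iff F p r] at h0
  exact h ((Nat.prime_dvd_prime_iff_eq hp.out hr.out).1 h0).symm

theorem two_ne_zero_of_odd {q : ℕ} (hq : Fintype.card F = q) (hodd : Odd q) : (2 : F) ≠ 0 := by
  intro h
  obtain ⟨p, hp⟩ := CharP.exists F
  obtain ⟨n, hpp, hn⟩ := FiniteField.card F p
  have h2 : ((2 : ℕ) : F) = 0 := by exact_mod_cast h
  rw [CharP.cast_eq_zero_iff F p 2] at h2
  have h3 : p = 2 := (Nat.prime_dvd_prime_iff_eq hpp Nat.prime_two).1 h2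
  rw [← hq, hn, h3] at hodd
  exact (Nat.not_even_iff_odd.2 hodd) ((even_two).pow_of_ne_zero (PNat.ne_zero n))

theorem p_ne_two_of_odd {p q : ℕ} [Fact p.Prime] [CharP F p] (hq : Fintype.card F = q) (hodd : Odd q) :
    p ≠ 2 := by
  intro h
  apply two_ne_zero_of_odd hq hodd
  have := CharP.cast_eq_zero F p
  rw [h] at this
  exact_mod_cast this

theorem two_ne_zero_of_ne {p : ℕ} [Fact p.Prime] [CharP F p] (h : p ≠ 2) : (2 : F) ≠ 0 := by
  intro h0
  have h2 : ((2 : ℕ) : F) = 0 := by exact_mod_cast h0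
  rw [CharP.cast_eq_zero_iff F p 2] at h2
  exact h ((Nat.prime_dvd_prime_iff_eq Fact.out Nat.prime_two).1 h2)

theorem dl_odd {r i q : ℕ} (hq : Fintype.card F = q) (hi : i = orderOf (q : ZMod r)) (h : Odd i) (j : ℕ) :
    dl F r j := Or.inl (by rw [ii_eq hq, ← hi]; exact h)

theorem dl_even {r i q : ℕ} (hq : Fintype.card F = q) (hi : i = orderOf (q : ZMod r)) (h : Even i) (j : ℕ) :
    dl F r j ↔ Even j := by
  rw [dl, ii_eq hq, ← hi]
  exact or_iff_right (Nat.not_odd_iff_even.2 h)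

end Field

end Cfsg.Agent.H958
end
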