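import Mathlib
import Cfsg.Agent.H958.TransP
import Cfsg.Agent.H958.Invol
set_option linter.all false

-- part: H958/JThree
section
/-!
# Isometries with `(T - 1) ^ 3 = 0` in odd characteristic
-/

set_option autoImplicit false

namespace Cfsg.Agent.H958

open Module QuadraticMap Cfsg.Agent.LieClassical.OrthCore Cfsg.Agent.LieClassical.OrthTrans
  Cfsg.Agent.H955 Cfsg.Agent.LieClassical.OrthFinite

universe u v w
variable {F : Type u} [Field F]

section Rank

variable {V : Type v} [AddCommGroup V] [Module F V]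

/-- the rank of `(T - 1) ^ 2` -/
noncomputable def rkTwo (T : V ≃ₗ[F] V) : ℕ := finrank F (LinearMap.range (nu T ∘ₗ nu T))

/-- the rank of `T - 1` -/
noncomputable def rkOne (T : V ≃ₗ[F] V) : ℕ := finrank F (LinearMap.range (nu T))

theorem rkOne_eq (T : V ≃ₗ[F] V) : rkOne T = finrank F (comS T) := rfl

variable [FiniteDimensional F V]

theorem rank_ineq (f : V →ₗ[F] V) :
    2 * finrank F (LinearMap.range f) ≤ finrank F V + finrank F (LinearMap.range (f ∘ₗ f)) := by
  let g : LinearMap.range f →ₗ[F] V := f.domRestrict (LinearMap.range f)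
  have h1 := LinearMap.finrank_range_add_finrank_ker g
  have h2 := LinearMap.finrank_range_add_finrank_ker f
  have h3 : LinearMap.range g = LinearMap.range (f ∘ₗ f) := by
    ext x
    constructor
    · rintro ⟨⟨y, z, rfl⟩, rfl⟩
      exact ⟨z, rfl⟩
    · rintro ⟨z, rfl⟩
      exact ⟨⟨f z, z, rfl⟩, rfl⟩
  have h4 : finrank F (LinearMap.ker g) ≤ finrank F (LinearMap.ker f) := by
    have h5 : (LinearMap.ker g).map (LinearMap.range f).subtype ≤ LinearMap.ker f := by
      rintro _ ⟨y, hy, rfl⟩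
      exact hy
    rw [← Submodule.finrank_map_subtype_eq (LinearMap.range f) (LinearMap.ker g)]
    exact Submodule.finrank_mono h5
  rw [h3] at h1
  omega

theorem map_nu_resT {T : V ≃ₗ[F] V} {W : Submodule F V} (h : ∀ w ∈ W, T w ∈ W) :
    rkTwo (resT T W h) = finrank F (W.map (nu T ∘ₗ nu T)) := by
  have e : (LinearMap.range (nu (resT T W h) ∘ₗ nu (resT T W h))).map W.subtype =
      W.map (nu T ∘ₗ nu T) := by
    ext v
    constructor
    · rintro ⟨_, ⟨w, rfl⟩, rfl⟩
      exact ⟨w, w.2, rfl⟩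
    · rintro ⟨w, hw, rfl⟩
      exact ⟨_, ⟨⟨w, hw⟩, rfl⟩, rfl⟩
  rw [rkTwo, ← e, Submodule.finrank_map_subtype_eq]

/-- additivity -/
theorem rk_add {T : V ≃ₗ[F] V} {W P : Submodule F V} (hc : IsCompl W P) (hW : ∀ w ∈ W, T w ∈ W)
    (hP : ∀ w ∈ P, T w ∈ P) :
    rkOne T = rkOne (resT T W hW) + rkOne (resT T P hP) ∧
      rkTwo T = rkTwo (resT T W hW) + rkTwo (resT T P hP) := by
  constructor
  · rw [rkOne_eq (resT T W hW), rkOne_eq (resT T P hP), finrank_comS_resT, finrank_comS_resT]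
    exact finrank_range_add (nu T) hc (map_nu_le hW) (map_nu_le hP)
  · rw [map_nu_resT, map_nu_resT]
    refine finrank_range_add _ hc ?_ ?_
    · rw [Submodule.map_comp]
      exact (Submodule.map_mono (map_nu_le hW)).trans (map_nu_le hW)
    · rw [Submodule.map_comp]
      exact (Submodule.map_mono (map_nu_le hP)).trans (map_nu_le hP)

end Rank

variable {V : Type v} [AddCommGroup V] [Module F V] {Q : QuadraticForm F V}

/-- `(T - 1) ^ 3 = 0` -/
structure IsJThree (Q : QuadraticForm F V) (T : V ≃ₗ[F] V) : Prop where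
  mem : T ∈ O Q
  cube : ∀ v, nu T (nu T (nu T v)) = 0

namespace IsJThree

variable {T : V ≃ₗ[F] V}

theorem pow_apply (h : IsJThree Q T) (n : ℕ) (v : V) :
    (T ^ n) v = v + n • nu T v + n.choose 2 • nu T (nu T v) := by
  have hT : ∀ x, T x = x + nu T x := fun x => by rw [nu_apply]; abel
  induction n with
  | zero => rw [pow_zero, Nat.choose_zero_succ, zero_smul, zero_smul, add_zero, add_zero]; rfl
  | succ n ih =>
    rw [pow_succ', LinearEquiv.mul_apply, ih, map_add, map_add, map_nsmul, map_nsmul, hT v,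
      hT (nu T v), hT (nu T (nu T v)), h.cube, add_zero, Nat.choose_succ_succ' n 1, Nat.choose_one_right,
      add_smul, add_smul, one_smul, smul_add]
    abel

theorem pow_char (h : IsJThree Q T) {p : ℕ} [hp : Fact p.Prime] [CharP F p] (hp2 : p ≠ 2) :
    T ^ p = 1 := by
  have h3 : 2 < p := lt_of_le_of_ne hp.out.two_le (Ne.symm hp2)
  have hd : p ∣ p.choose 2 := hp.out.dvd_choose_self (by norm_num) h3
  ext v
  rw [h.pow_apply, ← Nat.cast_smul_eq_nsmul F, CharP.cast_eq_zero, zero_smul, add_zero,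
    ← Nat.cast_smul_eq_nsmul F, (CharP.cast_eq_zero_iff F p _).2 hd, zero_smul, add_zero]
  rfl

variable [FiniteDimensional F V]

theorem resThree (h : IsJThree Q T) {W : Submodule F V} (hW : ∀ w ∈ W, T w ∈ W) :
    IsJThree (res Q W) (resT T W hW) where
  mem := resT_mem h.mem hW
  cube v := Subtype.ext (h.cube v)

theorem even (h : IsJThree Q T) (h2 : (2 : F) ≠ 0) (hQ : Nondeg Q) : Even (rkOne T) := by
  let f : V →ₗ[F] V := (T : V →ₗ[F] V) - ((T⁻¹ : V ≃ₗ[F] V) : V →ₗ[F] V)
  have hf : ∀ v, f v = T v - T⁻¹ v := fun _ => rfl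
  have hTi : T⁻¹ ∈ O Q := (O Q).inv_mem h.mem
  have hTTi : ∀ v, T (T⁻¹ v) = v := fun v => T.apply_symm_apply v
  have hTiT : ∀ v, T⁻¹ (T v) = v := fun v => T.symm_apply_apply v
  have hpol : ∀ u v, polar Q u (T⁻¹ v) = polar Q (T u) v := fun u v => by
    rw [← polar_map h.mem u (T⁻¹ v), hTTi]
  have hpol' : ∀ u v, polar Q u (T v) = polar Q (T⁻¹ u) v := fun u v => by
    rw [← polar_map h.mem (T⁻¹ u) v, hTTi]
  let B : LinearMap.BilinForm F V := (polarBilin Q).compl₂ f
  have hB : ∀ u v, B u v = polar Q u (T v - T⁻¹ v) := fun _ _ => rfl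
  obtain ⟨k, hk⟩ := even_rank_alt B (fun v => by
    change polar Q v (T v - T⁻¹ v) = 0
    rw [polar_sub_right, hpol, polar_comm Q v (T v), sub_self]) (fixS T) (by
    intro u
    have key : (∀ v, B u v = 0) ↔ T u = T⁻¹ u := by
      constructor
      · intro h1
        have h3 : T⁻¹ u - T u = 0 := hQ _ fun v => by
          have h4 := h1 v
          rw [hB, polar_sub_right, hpol, hpol', ← polar_sub_left] at h4
          exact h4
        exact (sub_eq_zero.1 h3).symm
      · intro h1 v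
        rw [hB, polar_sub_right, hpol, hpol', h1, sub_self]
    rw [key, mem_fixS]
    constructor
    · intro h1
      have h3 : T⁻¹ u = u := by
        conv_lhs => rw [← h1]
        exact hTiT u
      rw [h1, h3]
    · intro h1
      -- `T ^ 2 u = u`
      have h3 : T (T u) = u := by rw [h1, hTTi]
      set y := nu T u with hy
      have h4 : T y = -y := by
        rw [hy, nu_apply, map_sub, h3]; abel
      have h5 : nu T y = (-2 : F) • y := by
        rw [nu_apply, h4, neg_smul, two_smul]; abel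
      have h6 : nu T (nu T (nu T y)) = (-2 : F) • (-2 : F) • (-2 : F) • y := by
        rw [h5, map_smul, h5, map_smul, map_smul, h5]
      have h7 : (-2 : F) ≠ 0 := neg_ne_zero.2 h2
      rw [h.cube] at h6
      have h8 : y = 0 := by
        have a1 := (smul_eq_zero.1 h6.symm).resolve_left h7
        have a2 := (smul_eq_zero.1 a1).resolve_left h7
        exact (smul_eq_zero.1 a2).resolve_left h7
      exact sub_eq_zero.1 h8)
  have h1 := finrank_fixS_add_comS T
  exact ⟨k, by rw [rkOne_eq]; omega⟩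

/-- the constraints on an invariant nondegenerate subspace -/
theorem split (h : IsJThree Q T) (h2 : (2 : F) ≠ 0) (hQ : Nondeg Q) {W : Submodule F V}
    (hW : Nondeg (H955.res Q W)) (hT : ∀ w ∈ W, T w ∈ W) :
    ∃ a b a' b', rkOne T = a + b ∧ rkTwo T = a' + b' ∧ Even a ∧ Even b ∧
      a = rkOne (resT T W hT) ∧ a' = rkTwo (resT T W hT) ∧
      2 * a ≤ finrank F W + a' ∧ 2 * b ≤ finrank F (perp Q W) + b' := by
  have hT' := map_mem_perp h.mem hT
  have hP := nondeg_perp hQ hW
  obtain ⟨h1, h3⟩ := rk_add (isCompl_perp hW) hT hT'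
  exact ⟨_, _, _, _, h1, h3, (h.resThree hT).even h2 hW, (h.resThree hT').even h2 hP, rfl, rfl,
    rank_ineq _, rank_ineq _⟩

end IsJThree

/-- in odd characteristic `(T - 1) ^ 2 = 0` implies the alternating property. -/
theorem isJTwo_of_sq (h2 : (2 : F) ≠ 0) {T : V ≃ₗ[F] V} (hT : T ∈ O Q)
    (h : ∀ v, nu T (nu T v) = 0) : IsJTwo Q T := by
  have hsq : ∀ v, T (T v - v) = T v - v := fun v => sub_eq_zero.1 (h v)
  refine ⟨hT, hsq, fun v => ?_⟩
  set n := T v - v with hn
  have h1 : polar Q v n = - Q n := by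
    have h3 := hT v
    have h4 : T v = v + n := by rw [hn]; abel
    rw [h4, Q_add] at h3
    linear_combination h3
  have h5 : polar Q n n = 0 := by
    have h6 : polar Q (T v) (T n) = polar Q v n := polar_map hT v n
    have h4 : T v = v + n := by rw [hn]; abel
    have hTn : T n = n := hsq v
    rw [hTn, h4, polar_add_left] at h6
    exact add_left_cancel (h6.trans (add_zero _).symm)
  rw [polar_self'] at h5
  rw [h1, (mul_eq_zero.1 h5).resolve_left h2, neg_zero]

theorem IsJTwo.isJThree {T : V ≃ₗ[F] V} (h : IsJTwo Q T) : IsJThree Q T where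
  mem := h.mem
  cube v := by
    have : nu T (nu T v) = 0 := sub_eq_zero.2 (h.sq v)
    rw [this, map_zero]

theorem IsJTwo.rkTwo_eq {T : V ≃ₗ[F] V} (h : IsJTwo Q T) : rkTwo T = 0 := by
  have h1 : nu T ∘ₗ nu T = 0 := by
    ext v
    exact sub_eq_zero.2 (h.sq v)
  rw [rkTwo, h1, LinearMap.range_zero, finrank_bot]

/-- gluing -/
theorem exists_glue_three [FiniteDimensional F V] {W : Submodule F V} (hW : Nondeg (res Q W))
    {g : W ≃ₗ[F] W} {g' : perp Q W ≃ₗ[F] perp Q W} (hg : IsJThree (res Q W) g)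
    (hg' : IsJThree (res Q (perp Q W)) g') :
    ∃ T, IsJThree Q T ∧ (∀ w : W, T w = g w) ∧ (∀ w : perp Q W, T w = g' w) ∧
      rkOne T = rkOne g + rkOne g' ∧ rkTwo T = rkTwo g + rkTwo g' := by
  obtain ⟨T, hT, h1, h3⟩ := exists_glue hW hg.mem hg'.mem
  have hWT : ∀ w ∈ W, T w ∈ W := fun w hw => by
    rw [h1 ⟨w, hw⟩]; exact (g ⟨w, hw⟩).2
  have hPT : ∀ w ∈ perp Q W, T w ∈ perp Q W := fun w hw => by
    rw [h3 ⟨w, hw⟩]; exact (g' ⟨w, hw⟩).2
  have e1 : resT T W hWT = g := by
    ext w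
    exact h1 w
  have e2 : resT T (perp Q W) hPT = g' := by
    ext w
    exact h3 w
  obtain ⟨h4, h5⟩ := rk_add (isCompl_perp hW) hWT hPT
  rw [e1, e2] at h4 h5
  have n1 : ∀ w : W, nu T w = (nu g w : V) := fun w => by
    rw [nu_apply, h1, nu_apply]; rfl
  have n2 : ∀ w : perp Q W, nu T w = (nu g' w : V) := fun w => by
    rw [nu_apply, h3, nu_apply]; rfl
  refine ⟨T, ⟨hT, fun v => ?_⟩, h1, h3, h4, h5⟩
  obtain ⟨x, rfl⟩ := (decomp hW).surjective v
  rw [decomp_apply]
  simp only [map_add, n1, n2]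
  rw [hg.cube, hg'.cube]
  simp

/-- a nontrivial element in dimension three -/
theorem exists_three [Finite F] [FiniteDimensional F V] (h2 : (2 : F) ≠ 0) (hQ : Nondeg Q)
    (hd : finrank F V = 3) : ∃ T, IsJThree Q T ∧ rkOne T = 2 ∧ rkTwo T = 1 ∧
      ∀ v, T v = v → Q v = 0 := by
  obtain ⟨e, he0, he⟩ := exists_singular Q (by omega)
  obtain ⟨f, hf⟩ := Cfsg.Agent.LieClassical.OrthTrans.exists_hyp hQ he he0
  have hn := nondeg_hperp hQ hf
  have hnd := finrank_hperp hf
  obtain ⟨w, hw⟩ := exists_aniso_vec hn (by omega)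
  have hwQ : Q (w : V) ≠ 0 := hw
  have hew : polar Q e (w : V) = 0 := w.2.1
  have hfw : polar Q f (w : V) = 0 := w.2.2
  let T := siegel Q e (w : V) he hew
  have hTO : T ∈ O Q := E_le_O (siegel_mem_E _ _)
  have hν : ∀ v, nu T v = polar Q e v • (w : V) - polar Q (w : V) v • e - (Q (w : V) * polar Q e v) • e := by
    intro v
    have h3 : T v = siegelLin Q e (w : V) v := rfl
    rw [nu_apply, h3, siegelLin_apply]
    abel
  have hee : polar Q e e = 0 := by rw [polar_self', he, mul_zero]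
  have hνe : nu T e = 0 := by
    rw [hν, hee, polar_comm, hew, mul_zero, zero_smul, zero_smul, sub_zero, sub_zero]
  have hνw : nu T (w : V) = (-(2 * Q (w : V))) • e := by
    rw [hν, hew, polar_self', mul_zero, zero_smul, zero_smul, sub_zero, zero_sub, neg_smul]
  have hν2 : ∀ v, nu T (nu T v) = (polar Q e v * -(2 * Q (w : V))) • e := by
    intro v
    rw [hν v, map_sub, map_sub, map_smul, map_smul, map_smul, hνe, smul_zero, smul_zero, sub_zero, sub_zero,
      hνw, smul_smul]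
  have hJ : IsJThree Q T := ⟨hTO, fun v => by rw [hν2 v, map_smul, hνe, smul_zero]⟩
  have hev := hJ.even h2 hQ
  have hineq := rank_ineq (nu T)
  have hef : polar Q e f = 1 := hf.pair
  have hne : nu T f ≠ 0 := by
    intro h0
    have h1 := hν2 f
    rw [h0, map_zero, hef, one_mul] at h1
    rcases smul_eq_zero.1 h1.symm with h3 | h3
    · exact (mul_ne_zero h2 hwQ) (neg_eq_zero.1 h3)
    · exact he0 h3
  have h1pos : 0 < rkOne T := by
    rw [rkOne]
    apply Nat.pos_of_ne_zero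
    intro h0
    rw [Submodule.finrank_eq_zero, LinearMap.range_eq_bot] at h0
    exact hne (by rw [h0]; rfl)
  have hle2 : rkTwo T ≤ 1 := by
    have h3 : LinearMap.range (nu T ∘ₗ nu T) ≤ F ∙ e := by
      rintro _ ⟨v, rfl⟩
      rw [Submodule.mem_span_singleton]
      exact ⟨_, (hν2 v).symm⟩
    have h4 := Submodule.finrank_mono h3
    rw [finrank_span_singleton he0] at h4
    exact h4
  have hrk1 : rkOne T = finrank F (LinearMap.range (nu T)) := rfl
  have hrk2 : rkTwo T = finrank F (LinearMap.range (nu T ∘ₗ nu T)) := rfl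
  have hfin : rkOne T = 2 ∧ rkTwo T = 1 := by
    obtain ⟨k, hk⟩ := hev
    omega
  refine ⟨T, hJ, hfin.1, hfin.2, ?_⟩
  intro v hv
  -- `v` is orthogonal to the image of `ν`, hence to `w - Q(w) e` and to `e`.
  have h0 : nu T v = 0 := sub_eq_zero.2 hv
  have h1 := hν2 v
  rw [h0, map_zero] at h1
  have hev0 : polar Q e v = 0 := by
    rcases smul_eq_zero.1 h1.symm with h3 | h3
    · exact (mul_eq_zero.1 h3).resolve_right (neg_ne_zero.2 (mul_ne_zero h2 hwQ))
    · exact absurd h3 he0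
  have hwv0 : polar Q (w : V) v = 0 := by
    have h3 := hν v
    rw [h0, hev0, mul_zero, zero_smul, zero_smul, sub_zero, zero_sub] at h3
    exact (smul_eq_zero.1 (neg_eq_zero.1 h3.symm)).resolve_right he0
  -- `v` lies in `⟨e⟩`.
  obtain ⟨⟨y, a, b⟩, rfl⟩ := (hypEquiv hf).surjective v
  have hQv := Q_hypEquiv hf (y, a, b)
  rw [hypEquiv_apply] at hev0 hwv0
  simp only at hev0 hwv0 hQv
  have hb : b = 0 := by
    have h5 : polar Q e (y : V) = 0 := y.2.1
    rw [polar_add_right, polar_add_right, polar_smul_right, polar_smul_right, h5, hee, hef] at hev0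
    simpa using hev0
  have hy : Q (y : V) = 0 := by
    have hwe : polar Q (w : V) e = 0 := by rw [polar_comm]; exact hew
    have hwf : polar Q (w : V) f = 0 := by rw [polar_comm]; exact hfw
    rw [polar_add_right, polar_add_right, polar_smul_right, polar_smul_right, hwe, hwf] at hwv0
    have hwy : polar Q (w : V) (y : V) = 0 := by simpa using hwv0
    -- the complement is one-dimensional
    have h6 : ∃ c : F, c • w = y := by
      have h7 : finrank F (hperp Q e f) = 1 := by omega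
      have hw0 : w ≠ 0 := by
        rintro rfl
        exact hw (map_zero _)
      exact (finrank_eq_one_iff_of_nonzero' w hw0).1 h7 y
    obtain ⟨c, rfl⟩ := h6
    have h8 : ((c • w : hperp Q e f) : V) = c • (w : V) := rfl
    rw [h8, polar_smul_right, polar_self', smul_eq_mul] at hwy
    rw [h8, QuadraticMap.map_smul]
    rcases mul_eq_zero.1 hwy with h9 | h9
    · rw [h9]; simp
    · exact absurd h9 (mul_ne_zero h2 hwQ)
  rw [hQv, hy, hb, mul_zero, add_zero]

end Cfsg.Agent.H958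
end

-- part: H958/JThreeExists
section
/-!
# Existence of isometries of order `p` without invariant subspaces of certain kinds
-/

set_option autoImplicit false

namespace Cfsg.Agent.H958

open Module QuadraticMap Cfsg.Agent.LieClassical.OrthCore Cfsg.Agent.LieClassical.OrthTrans
  Cfsg.Agent.H955 Cfsg.Agent.LieClassical.OrthFinite

universe u v w
variable {F : Type u} [Field F] [Finite F]
  {V : Type v} [AddCommGroup V] [Module F V] [FiniteDimensional F V] {Q : QuadraticForm F V}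

omit [Finite F] in
/-- full rank on a space of plus type of dimension `4k` -/
theorem exists_full (hQ : Nondeg Q) {k : ℕ} (hd : finrank F V = 2 * (2 * k)) (hp : IsPlus Q) :
    ∃ T, IsJThree Q T ∧ rkOne T = 2 * k ∧ rkTwo T = 0 ∧ ∀ v, T v = v → Q v = 0 := by
  obtain ⟨U, hU, hUd⟩ := hp
  obtain ⟨T, hT, hJ, hTU⟩ := exists_JTwo hQ hU (k := k) (by omega)
  refine ⟨T, hJ.isJThree, ?_, hJ.rkTwo_eq, ?_⟩
  · rw [rkOne_eq, hTU]; omega
  · intro v hv
    have h1 : v ∈ fixS T := mem_fixS.2 hv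
    rw [← perp_comS_eq hQ hJ.mem, hTU] at h1
    have h2 : U = perp Q U := by
      apply Submodule.eq_of_le_of_finrank_eq
      · intro x hx y hy
        exact polar_eq_zero_of_tsing hU hy hx
      · have := finrank_add_perp hQ U
        omega
    rw [← h2] at h1
    exact hU v h1

theorem exists_E2 (h2 : (2 : F) ≠ 0) (hQ : Nondeg Q) {d : ℕ} (hd : finrank F V = 2 * d) (hdo : Odd d)
    (hd5 : 5 ≤ d) : ∃ T, IsJThree Q T ∧ rkOne T = d + 1 ∧ rkTwo T = 2 := by
  obtain ⟨k, hk⟩ := hdo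
  obtain ⟨X, hX, hXd, hXp⟩ := exists_subspace hQ (by rw [hd]; exact even_two_mul d) (d - 3) (by omega)
    (by omega) True
  obtain ⟨T₃, hT₃, h31, h32, -⟩ := exists_full hX (k := k - 1) (by rw [hXd]; omega) (hXp.2 trivial)
  have hP := nondeg_perp hQ hX
  have hPd := finrank_add_perp hQ X
  obtain ⟨Y, hY, hYd⟩ := exists_nd_subspace h2 hP 3 (by omega)
  have hZ := nondeg_perp hP hY
  have hZd := finrank_add_perp hP Y
  obtain ⟨T₁, hT₁, h11, h12, -⟩ := exists_three h2 hY hYd
  obtain ⟨T₂, hT₂, h21, h22, -⟩ := exists_three h2 hZ (by omega)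
  obtain ⟨T', hT', -, -, h1, h3⟩ := exists_glue_three hY hT₁ hT₂
  obtain ⟨T, hT, -, -, h4, h5⟩ := exists_glue_three hX hT₃ hT'
  exact ⟨T, hT, by omega, by omega⟩

theorem exists_E3 (h2 : (2 : F) ≠ 0) (hQ : Nondeg Q) {d : ℕ} (hd : finrank F V = 2 * d) (hde : Even d)
    (hd4 : 4 ≤ d) {δ : F} (hδ : δ ≠ 0) :
    ∃ T, IsJThree Q T ∧ rkOne T = d ∧ rkTwo T = 1 ∧ ∀ v, T v = v → ∃ c : F, Q v = c ^ 2 * δ := by
  obtain ⟨k, hk⟩ := hde
  obtain ⟨w, hw⟩ := exists_value h2 hQ (by omega) δ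
  have hw0 : Q w ≠ 0 := by rw [hw]; exact hδ
  have hL := nondeg_span h2 hw0
  have hLd := finrank_span_aniso hw0
  have hP := nondeg_perp hQ hL
  have hPd := finrank_add_perp hQ (F ∙ w)
  rw [hLd] at hPd
  -- a subspace of plus type of dimension `2 (d - 2)`
  obtain ⟨X₀, _, _, _, R, hR, hRd, hRp⟩ := exists_model (F := F) (d - 2) (by omega) True
  obtain ⟨f, hf, hfQ⟩ := exists_embedding_odd h2 _ hR hRd hP (by omega)
  obtain ⟨hX, hXd, hXp⟩ := range_props hR hf hfQ
  rw [hRd] at hXd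
  rw [hRp] at hXp
  set X := LinearMap.range f with hXdef
  obtain ⟨T₃, hT₃, h31, h32, h33⟩ := exists_full hX (k := k - 1) (by rw [hXd]; omega) (hXp.2 trivial)
  have hZ := nondeg_perp hP hX
  have hZd := finrank_add_perp hP X
  obtain ⟨T₁, hT₁, h11, h12, h13⟩ := exists_three h2 hZ (by omega)
  obtain ⟨T', hT', g1, g2, h1, h3⟩ := exists_glue_three hX hT₃ hT₁
  have hone : IsJThree (res Q (F ∙ w)) 1 := ⟨(O _).one_mem, fun v => by
    have : nu (1 : (F ∙ w) ≃ₗ[F] (F ∙ w)) v = 0 := sub_self v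
    rw [this, map_zero, map_zero]⟩
  have hnu0 : nu (1 : (F ∙ w) ≃ₗ[F] (F ∙ w)) = 0 := by
    ext v
    exact congrArg Subtype.val (sub_self v)
  obtain ⟨T, hT, g3, g4, h4, h5⟩ := exists_glue_three hL hone hT'
  have r1 : rkOne (1 : (F ∙ w) ≃ₗ[F] (F ∙ w)) = 0 := by
    rw [rkOne, hnu0, LinearMap.range_zero, finrank_bot]
  have r2 : rkTwo (1 : (F ∙ w) ≃ₗ[F] (F ∙ w)) = 0 := by
    rw [rkTwo, hnu0, LinearMap.comp_zero, LinearMap.range_zero, finrank_bot]
  refine ⟨T, hT, by omega, by omega, ?_⟩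
  intro v hv
  obtain ⟨⟨x, y⟩, rfl⟩ := (decomp hL).surjective v
  rw [Q_decomp]
  simp only
  rw [decomp_apply] at hv
  simp only at hv
  rw [map_add, g3, g4] at hv
  have hy : T' y = y := by
    have h6 : (T' y : V) = y := add_left_cancel hv
    exact Subtype.ext h6
  have hQy : Q (y : V) = 0 := by
    obtain ⟨⟨a, b⟩, rfl⟩ := (decomp hX).surjective y
    have h7 := Q_decomp hX (a, b)
    rw [decomp_apply] at hy
    simp only at hy
    rw [map_add, g1, g2] at hy
    -- uniqueness of the decomposition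
    have h8 : ((T₃ a - a : X) : perp Q (F ∙ w)) = ((b - T₁ b : perp (res Q (perp Q (F ∙ w))) X) : perp Q (F ∙ w)) := by
      rw [AddSubgroupClass.coe_sub, AddSubgroupClass.coe_sub, sub_eq_sub_iff_add_eq_add, hy, add_comm]
    have h9 : ((T₃ a - a : X) : perp Q (F ∙ w)) = 0 :=
      Submodule.disjoint_def.1 (isCompl_perp hX).disjoint _ (T₃ a - a).2 (by rw [h8]; exact (b - T₁ b).2)
    have h10 : T₃ a = a := sub_eq_zero.1 (Subtype.ext h9)
    have h11 : T₁ b = b := by
      rw [h9] at h8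
      exact (sub_eq_zero.1 (Subtype.ext h8.symm)).symm
    have h12 : Q ((decomp hX (a, b) : perp Q (F ∙ w)) : V) = res Q (perp Q (F ∙ w)) (decomp hX (a, b)) := rfl
    rw [h12, h7]
    have h14 := h33 a h10
    have h15 := h13 b h11
    rw [res_apply] at h14 h15
    simp only
    rw [h14, h15, add_zero]
  obtain ⟨c, hc⟩ := Submodule.mem_span_singleton.1 x.2
  refine ⟨c, ?_⟩
  rw [hQy, add_zero, ← hc, QuadraticMap.map_smul, hw, smul_eq_mul, pow_two]

/-- the discriminant of the anisotropic part is unique up to squares. -/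
theorem aniso_unique (h2 : (2 : F) ≠ 0) (hQ : Nondeg Q) {a b : V} (ha : Q a ≠ 0) (hb : Q b ≠ 0)
    (hpa : IsPlus (res Q (perp Q (F ∙ a)))) (hpb : IsPlus (res Q (perp Q (F ∙ b)))) :
    ∃ c : F, Q a = c ^ 2 * Q b := by
  have hA := nondeg_span h2 ha
  have hB := nondeg_span h2 hb
  have h1 := finrank_add_perp hQ (F ∙ a)
  have h3 := finrank_add_perp hQ (F ∙ b)
  rw [finrank_span_aniso ha] at h1
  rw [finrank_span_aniso hb] at h3
  obtain ⟨e, he⟩ := exists_equiv_of_isPlus_iff (nondeg_perp hQ hA) (nondeg_perp hQ hB) (by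
    obtain ⟨U, -, hU⟩ := hpa
    rw [← hU]; exact even_two_mul _) (by omega) (iff_of_true hpa hpb)
  obtain ⟨g, hg, hgm⟩ := exists_conj hQ e he
  have h4 := perp_map hg (perp Q (F ∙ a))
  rw [hgm, perp_perp hQ, perp_perp hQ] at h4
  have h5 : g a ∈ F ∙ b := by
    rw [h4]
    exact ⟨a, Submodule.mem_span_singleton_self a, rfl⟩
  obtain ⟨c, hc⟩ := Submodule.mem_span_singleton.1 h5
  refine ⟨c, ?_⟩
  rw [← hg a, ← hc, QuadraticMap.map_smul, smul_eq_mul, pow_two]

/-- every nondegenerate space of odd dimension has a nonsingular vector with complement of plus type. -/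
theorem exists_aniso_plus (h2 : (2 : F) ≠ 0) (hQ : Nondeg Q) {k : ℕ} (hd : finrank F V = 2 * k + 1) :
    ∃ a, Q a ≠ 0 ∧ IsPlus (res Q (perp Q (F ∙ a))) := by
  rcases Nat.eq_zero_or_pos k with rfl | hk
  · obtain ⟨a, ha⟩ := exists_aniso_vec hQ (by omega)
    refine ⟨a, ha, isPlus_of_finrank_zero ?_⟩
    have h3 := finrank_add_perp hQ (F ∙ a)
    rw [finrank_span_aniso ha] at h3
    omega
  obtain ⟨X₀, _, _, _, R, hR, hRd, hRp⟩ := exists_model (F := F) k hk True
  obtain ⟨f, hf, hfQ⟩ := exists_embedding_odd h2 _ hR hRd hQ (by omega)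
  obtain ⟨hX, hXd, hXp⟩ := range_props hR hf hfQ
  rw [hRp] at hXp
  have hP := nondeg_perp hQ hX
  have hPd := finrank_add_perp hQ (LinearMap.range f)
  obtain ⟨a, ha⟩ := exists_aniso_vec hP (by omega)
  have ha' : Q (a : V) ≠ 0 := ha
  refine ⟨(a : V), ha', ?_⟩
  have h3 := finrank_add_perp hQ (F ∙ (a : V))
  rw [finrank_span_aniso ha'] at h3
  have h4 : LinearMap.range f = perp Q (F ∙ (a : V)) := by
    apply Submodule.eq_of_le_of_finrank_eq
    · intro x hx y hy
      obtain ⟨c, rfl⟩ := Submodule.mem_span_singleton.1 hy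
      rw [polar_smul_left, polar_comm, a.2 x hx, smul_zero]
    · omega
  rw [← h4]
  exact hXp.2 trivial

/-- the key property of the element `exists_E3`. -/
theorem E3_no (h2 : (2 : F) ≠ 0) (hQ : Nondeg Q) {d : ℕ} (hd : finrank F V = 2 * d) {δ : F}
    {T : V ≃ₗ[F] V} (hT : IsJThree Q T) (hT1 : rkOne T = d) (hT2 : rkTwo T = 1)
    (hfix : ∀ v, T v = v → ∃ c : F, Q v = c ^ 2 * δ) {X : Submodule F V} (hX : Nondeg (res Q X))
    (hXT : ∀ v ∈ X, T v ∈ X) (hXd : finrank F X % 4 = 1) :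
    ∃ a : X, res Q X a ≠ 0 ∧ IsPlus (res (res Q X) (perp (res Q X) (F ∙ a))) ∧
      ∃ c : F, res Q X a = c ^ 2 * δ := by
  obtain ⟨a, b, a', b', h1, h3, ⟨k, hk⟩, hb, ha, ha', h4, h5⟩ := hT.split h2 hQ hX hXT
  have hPd := finrank_add_perp hQ X
  have ha'0 : a' = 0 := by omega
  have hdX : finrank F X = 2 * a + 1 := by omega
  have hJX := hT.resThree hXT
  -- `ν ^ 2 = 0` on `X`
  have hsq : ∀ v, nu (resT T X hXT) (nu (resT T X hXT) v) = 0 := by
    intro v
    have h6 : rkTwo (resT T X hXT) = 0 := by rw [← ha', ha'0]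
    rw [rkTwo, Submodule.finrank_eq_zero, LinearMap.range_eq_bot] at h6
    exact LinearMap.congr_fun h6 v
  have hJ2 := isJTwo_of_sq h2 hJX.mem hsq
  -- a fixed nonsingular vector
  have h7 := finrank_fixS_add_comS (resT T X hXT)
  obtain ⟨w, hw, hwQ⟩ : ∃ w ∈ fixS (resT T X hXT), res Q X w ≠ 0 := by
    by_contra hcon
    push Not at hcon
    have h8 := two_mul_finrank_le hX hcon
    rw [← rkOne_eq, ← ha] at h7
    omega
  have hwT : resT T X hXT w = w := mem_fixS.1 hw
  refine ⟨w, hwQ, ?_, ?_⟩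
  · have hL := nondeg_span h2 hwQ
    have hPn := nondeg_perp hX hL
    have hLT : ∀ v ∈ F ∙ w, resT T X hXT v ∈ F ∙ w := by
      intro v hv
      obtain ⟨c, rfl⟩ := Submodule.mem_span_singleton.1 hv
      rw [map_smul, hwT]
      exact hv
    have hPT := map_mem_perp hJX.mem hLT
    have h9 := hJ2.res hPT
    have h10 := (rk_add (isCompl_perp hL) hLT hPT).1
    have h11 : rkOne (resT (resT T X hXT) _ hLT) = 0 := by
      have : nu (resT (resT T X hXT) _ hLT) = 0 := by
        ext v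
        obtain ⟨c, hc⟩ := Submodule.mem_span_singleton.1 v.2
        have h12 : resT (resT T X hXT) _ hLT v = v := by
          apply Subtype.ext
          rw [coe_resT, ← hc, map_smul, hwT]
        rw [nu_apply, h12, sub_self]
        rfl
      rw [rkOne, this, LinearMap.range_zero, finrank_bot]
    have h13 := finrank_add_perp hX (F ∙ w)
    rw [finrank_span_aniso hwQ] at h13
    apply h9.plus hPn
    rw [rkOne_eq (resT (resT T X hXT) _ hPT)] at h10
    omega
  · exact hfix w (congrArg Subtype.val hwT)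

end Cfsg.Agent.H958
end

-- part: H958/NoP
section
/-!
# Elements of order `p` fixing no member of a class of nondegenerate subspaces of odd dimension
-/

set_option autoImplicit false

namespace Cfsg.Agent.H958

open Module QuadraticMap Cfsg.Agent.LieClassical.OrthCore Cfsg.Agent.LieClassical.OrthTrans
  Cfsg.Agent.H955 Cfsg.Agent.LieClassical.OrthFinite

universe u v w
variable {F : Type u} [Field F]

theorem isPlus_perp_equiv {V : Type v} [AddCommGroup V] [Module F V] {Q : QuadraticForm F V}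
    {V' : Type w} [AddCommGroup V'] [Module F V'] {Q' : QuadraticForm F V'} (e : V ≃ₗ[F] V')
    (he : ∀ v, Q' (e v) = Q v) (a : V) :
    IsPlus (res Q' (perp Q' (F ∙ e a))) ↔ IsPlus (res Q (perp Q (F ∙ a))) := by
  have h : (perp Q (F ∙ a)).map (e : V →ₗ[F] V') = perp Q' (F ∙ e a) := by
    ext v'
    obtain ⟨v, rfl⟩ := e.surjective v'
    constructor
    · rintro ⟨u, hu, huv⟩
      have huv' : u = v := e.injective huv
      subst huv'
      intro w hw
      obtain ⟨c, rfl⟩ := Submodule.mem_span_singleton.1 hw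
      rw [polar_smul_left, polar_of_equiv e he, hu a (Submodule.mem_span_singleton_self a), smul_zero]
    · intro hv
      refine ⟨v, ?_, rfl⟩
      intro w hw
      obtain ⟨c, rfl⟩ := Submodule.mem_span_singleton.1 hw
      rw [polar_smul_left, ← polar_of_equiv e he, hv _ (Submodule.mem_span_singleton_self _), smul_zero]
  let e' : perp Q (F ∙ a) ≃ₗ[F] perp Q' (F ∙ e a) := e.ofSubmodules _ _ h
  exact (isPlus_iff_of_equiv e' (fun v => he v)).symm

variable {V : Type v} [AddCommGroup V] [Module F V] [FiniteDimensional F V] {Q : QuadraticForm F V}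

theorem IsJThree.not_scalar {T : V ≃ₗ[F] V} (h : IsJThree Q T) (h2 : (2 : F) ≠ 0) (hG : Good Q)
    (h0 : 0 < rkOne T) (h1 : rkOne T < finrank F V) (z : F) : ¬ ∀ v, T v = z • v := by
  intro hz
  have hzz := sq_eq_one_of_scalar hG h.mem hz
  rcases mul_self_eq_one_iff.1 hzz with h3 | h3
  · have h4 : nu T = 0 := by
      ext v
      rw [nu_apply, hz, h3, one_smul, sub_self]
      rfl
    rw [rkOne, h4, LinearMap.range_zero, finrank_bot] at h0
    exact lt_irrefl _ h0
  · have h4 : LinearMap.range (nu T) = ⊤ := by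
      rw [eq_top_iff]
      intro v _
      refine ⟨-((2 : F)⁻¹ • v), ?_⟩
      rw [nu_apply, hz, h3, neg_smul, one_smul, neg_neg, sub_neg_eq_add, ← two_smul F, smul_smul,
        mul_inv_cancel₀ h2, one_smul]
    rw [rkOne, h4, finrank_top] at h1
    exact lt_irrefl _ h1

theorem exists_noP [Finite F] {p : ℕ} [hp : Fact p.Prime] [CharP F p] (h2 : (2 : F) ≠ 0) (hG : Good Q)
    {d m : ℕ} (hd : finrank F V = 2 * d) (hd4 : 4 ≤ d) (hm : Odd m) {W₀ : Submodule F V}
    (hW₀ : Nondeg (res Q W₀)) (hWd : finrank F W₀ = m) (hmn : m < 2 * d) :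
    ∃ T ∈ E Q, T ^ p = 1 ∧ (∀ z : F, ¬ ∀ v, T v = z • v) ∧
      ∀ g ∈ O Q, (∀ v ∈ W₀.map (g : V →ₗ[F] V), T v ∈ W₀.map (g : V →ₗ[F] V)) → False := by
  have hQ := hG.nondeg
  have hp2 : p ≠ 2 := by
    intro h
    apply h2
    have := CharP.cast_eq_zero F p
    rw [h] at this
    exact_mod_cast this
  have hpo : Odd p := hp.out.odd_of_ne_two hp2
  rcases Nat.even_or_odd d with hde | hdo
  · -- `d` even
    obtain ⟨l, hl⟩ := hde
    obtain ⟨m₁, hm₁⟩ := hm
    have hPd := finrank_add_perp hQ W₀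
    obtain ⟨X₀, hX₀, hX₀d, hX₀T⟩ : ∃ X₀ : Submodule F V, Nondeg (res Q X₀) ∧ finrank F X₀ % 4 = 1 ∧
        ∀ (T : V ≃ₗ[F] V), T ∈ O Q → ∀ g ∈ O Q,
          (∀ v ∈ W₀.map (g : V →ₗ[F] V), T v ∈ W₀.map (g : V →ₗ[F] V)) →
          (∀ v ∈ X₀.map (g : V →ₗ[F] V), T v ∈ X₀.map (g : V →ₗ[F] V)) := by
      by_cases hm4 : m % 4 = 1
      · exact ⟨W₀, hW₀, by rw [hWd]; exact hm4, fun T _ g _ h => h⟩
      · refine ⟨perp Q W₀, nondeg_perp hQ hW₀, by omega, fun T hT g hg h => ?_⟩
        rw [← perp_map hg]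
        exact map_mem_perp hT h
    obtain ⟨a₀, ha₀, ha₀p⟩ := exists_aniso_plus h2 hX₀ (k := finrank F X₀ / 2) (by omega)
    obtain ⟨ε, hε⟩ := FiniteField.exists_nonsquare (F := F) (by
      rw [ringChar.eq F p]; exact hp2)
    have hε0 : ε ≠ 0 := by
      rintro rfl
      exact hε (IsSquare.zero)
    set δ₀ := res Q X₀ a₀ with hδ₀
    obtain ⟨T, hT, hT1, hT2, hfix⟩ := exists_E3 h2 hQ hd ⟨l, hl⟩ hd4 (mul_ne_zero hε0 ha₀)
    have hTp : T ^ p = 1 := hT.pow_char hp2
    refine ⟨T, mem_E_of_odd hG hT.mem hpo hTp, hTp,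
      hT.not_scalar h2 hG (by omega) (by omega), ?_⟩
    intro g hg hgT
    have hXT := hX₀T T hT.mem g hg hgT
    have hX := nondeg_map hg hX₀
    obtain ⟨a, ha, hap, c, hc⟩ := E3_no h2 hQ hd hT hT1 hT2 hfix hX hXT (by rw [finrank_map']; exact hX₀d)
    have hg0 := Q_mapEquiv hg X₀
    have hb : res Q (X₀.map (g : V →ₗ[F] V)) (mapEquiv g X₀ a₀) = δ₀ := hg0 a₀
    have hbp := (isPlus_perp_equiv (mapEquiv g X₀) hg0 a₀).2 ha₀p
    obtain ⟨c', hc'⟩ := aniso_unique h2 hX ha (by rw [hb]; exact ha₀) hap hbp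
    rw [hb, hc] at hc'
    -- `c ^ 2 * (ε * δ₀) = c' ^ 2 * δ₀`
    apply hε
    have hc0 : c ≠ 0 := by
      rintro rfl
      rw [hc] at ha
      simp at ha
    refine ⟨c' / c, ?_⟩
    field_simp
    apply mul_right_cancel₀ ha₀
    linear_combination hc'
  · -- `d` odd
    obtain ⟨l, hl⟩ := hdo
    by_cases hm4 : m % 4 = 1
    · obtain ⟨T, hT, hT1, hT2⟩ := exists_E2 h2 hQ hd ⟨l, hl⟩ (by omega)
      have hTp : T ^ p = 1 := hT.pow_char hp2
      refine ⟨T, mem_E_of_odd hG hT.mem hpo hTp, hTp,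
        hT.not_scalar h2 hG (by omega) (by omega), ?_⟩
      intro g hg hgT
      have hX := nondeg_map hg hW₀
      obtain ⟨a, b, a', b', h1, h3, ⟨k, hk⟩, ⟨k', hk'⟩, -, -, h4, h5⟩ := hT.split h2 hQ hX hgT
      have hPd := finrank_add_perp hQ (W₀.map (g : V →ₗ[F] V))
      rw [finrank_map', hWd] at hPd h4
      omega
    · obtain ⟨U, hU, hUd⟩ := exists_tsing hQ hd (k := 2 * l) (by omega) (by omega)
      obtain ⟨T, hT, hJ, hTU⟩ := exists_JTwo hQ hU hUd
      have hTp : T ^ p = 1 := hJ.pow_char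
      refine ⟨T, hT, hTp, hJ.not_scalar hQ (by rw [hTU]; omega), ?_⟩
      intro g hg hgT
      have hX := nondeg_map hg hW₀
      obtain ⟨a, b, hab, ⟨k, hk⟩, ⟨k', hk'⟩, ha, hb, -, -⟩ := hJ.split hQ hX hgT
      have hPd := finrank_add_perp hQ (W₀.map (g : V →ₗ[F] V))
      rw [finrank_map', hWd] at hPd ha
      rw [hTU, hUd] at hab
      obtain ⟨m₁, hm₁⟩ := hm
      omega

end Cfsg.Agent.H958
end
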