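import Mathlib
import Cfsg.Agent.H958.TransP
set_option linter.all false

-- part: H958/JTwoStruct
section
/-!
# The structure of an isometry `T` with `(T - 1) ^ 2 = 0`, `polar v (T v) = 0`
-/

set_option autoImplicit false

namespace Cfsg.Agent.H958

open Module QuadraticMap Cfsg.Agent.LieClassical.OrthCore Cfsg.Agent.LieClassical.OrthTrans
  Cfsg.Agent.H955 Cfsg.Agent.LieClassical.OrthFinite

universe u v w
variable {F : Type u} [Field F]

section Block

variable {V : Type v} [AddCommGroup V] [Module F V] [FiniteDimensional F V] {Q : QuadraticForm F V}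
  {T : V ≃ₗ[F] V}

/-- nontrivial block of dimension 4 -/
theorem IsJTwo.exists_block (h : IsJTwo Q T) (hQ : Nondeg Q) {v : V} (hv : T v ≠ v) :
    ∃ C : Submodule F V, (∀ x ∈ C, T x ∈ C) ∧ Nondeg (H955.res Q C) ∧ finrank F C = 4 ∧
      IsPlus (H955.res Q C) := by
  have hs : ∀ x, Q (T x - x) = 0 := fun x => h.sing _ (sub_mem_comS T x)
  obtain ⟨w, hw⟩ := hQ.exists_polar_eq (sub_ne_zero.2 hv) 1
  set v' := T v - v with hv'
  set w' := T w - w with hw'
  have e1 : polar Q v' w = 1 := hw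
  have e1' : polar Q w v' = 1 := by rw [polar_comm]; exact hw
  have hvv' : polar Q v v' = 0 := h.alt v
  have hww' : polar Q w w' = 0 := h.alt w
  have hts : ∀ x ∈ comS T, ∀ y ∈ comS T, polar Q x y = 0 := fun x hx y hy =>
    polar_eq_zero_of_tsing h.sing hx hy
  have hv'w' : polar Q v' w' = 0 := hts _ (sub_mem_comS T v) _ (sub_mem_comS T w)
  have e2 : polar Q v w' = -1 := by
    have h1 := h.alt (v + w)
    rw [map_add] at h1
    have h2 : T v + T w - (v + w) = v' + w' := by rw [hv', hw']; abel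
    rw [h2, polar_add_left, polar_add_right, polar_add_right, hvv', hww', e1', add_zero, zero_add] at h1
    exact eq_neg_of_add_eq_zero_left h1
  have e2' : polar Q w' v = -1 := by rw [polar_comm]; exact e2
  let Φ : (F × F × F × F) →ₗ[F] V :=
    LinearMap.coprod (LinearMap.toSpanSingleton F V v) (LinearMap.coprod (LinearMap.toSpanSingleton F V w)
      (LinearMap.coprod (LinearMap.toSpanSingleton F V v') (LinearMap.toSpanSingleton F V w')))
  have hΦ : ∀ a b c e, Φ (a, b, c, e) = a • v + (b • w + (c • v' + e • w')) := fun _ _ _ _ => rfl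
  have hrad : ∀ a b c e, polar Q (Φ (a, b, c, e)) v = 0 → polar Q (Φ (a, b, c, e)) w = 0 →
      polar Q (Φ (a, b, c, e)) v' = 0 → polar Q (Φ (a, b, c, e)) w' = 0 →
      a = 0 ∧ b = 0 ∧ c = 0 ∧ e = 0 := by
    intro a b c e h1 h2 h3 h4
    have hb : b = 0 := by
      rw [hΦ] at h3
      simp only [polar_add_left, polar_smul_left, hvv', e1', polar_comm Q w' v', hv'w', smul_eq_mul] at h3
      have h5 : polar Q v' v' = 0 := hts _ (sub_mem_comS T v) _ (sub_mem_comS T v)
      rw [h5] at h3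
      simpa using h3
    have ha : a = 0 := by
      rw [hΦ] at h4
      simp only [polar_add_left, polar_smul_left, hww', e2, hv'w', smul_eq_mul] at h4
      have h5 : polar Q w' w' = 0 := hts _ (sub_mem_comS T w) _ (sub_mem_comS T w)
      rw [h5] at h4
      simpa using h4
    rw [ha, hb] at h1 h2
    have he : e = 0 := by
      rw [hΦ] at h1
      simp only [polar_add_left, polar_smul_left, zero_smul, zero_add, polar_comm Q v' v, hvv', e2',
        smul_eq_mul] at h1
      simpa using h1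
    have hc : c = 0 := by
      rw [hΦ] at h2
      simp only [polar_add_left, polar_smul_left, zero_smul, zero_add, e1, polar_comm Q w' w, hww',
        smul_eq_mul] at h2
      simpa using h2
    exact ⟨ha, hb, hc, he⟩
  have hinj : Function.Injective Φ := by
    rw [← LinearMap.ker_eq_bot, LinearMap.ker_eq_bot']
    rintro ⟨a, b, c, e⟩ h0
    obtain ⟨rfl, rfl, rfl, rfl⟩ := hrad a b c e (by rw [h0, polar_zero_left]) (by rw [h0, polar_zero_left])
      (by rw [h0, polar_zero_left]) (by rw [h0, polar_zero_left])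
    rfl
  have hmv : v ∈ LinearMap.range Φ := ⟨(1, 0, 0, 0), by rw [hΦ]; simp⟩
  have hmw : w ∈ LinearMap.range Φ := ⟨(0, 1, 0, 0), by rw [hΦ]; simp⟩
  have hmv' : v' ∈ LinearMap.range Φ := ⟨(0, 0, 1, 0), by rw [hΦ]; simp⟩
  have hmw' : w' ∈ LinearMap.range Φ := ⟨(0, 0, 0, 1), by rw [hΦ]; simp⟩
  have hnd : Nondeg (H955.res Q (LinearMap.range Φ)) := by
    rw [nondeg_res_iff]
    rintro _ ⟨⟨a, b, c, e⟩, rfl⟩ hx
    obtain ⟨rfl, rfl, rfl, rfl⟩ := hrad a b c e (hx v hmv) (hx w hmw) (hx v' hmv') (hx w' hmw')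
    exact map_zero Φ
  have hd : finrank F (LinearMap.range Φ) = 4 := by
    rw [LinearMap.finrank_range_of_inj hinj]
    simp only [Module.finrank_prod, Module.finrank_self]
  have hTv' : T v' = v' := h.sq v
  have hTw' : T w' = w' := h.sq w
  have hTv : T v = v + v' := by rw [hv']; abel
  have hTw : T w = w + w' := by rw [hw']; abel
  refine ⟨LinearMap.range Φ, ?_, hnd, hd, ?_⟩
  · rintro _ ⟨⟨a, b, c, e⟩, rfl⟩
    refine ⟨(a, b, a + c, b + e), ?_⟩
    rw [hΦ, hΦ]
    simp only [map_add, map_smul, hTv, hTw, hTv', hTw', smul_add, add_smul]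
    abel
  · refine isPlus_of_le hnd (U := (LinearMap.range (Φ ∘ₗ (LinearMap.inr F F (F × F × F)) ∘ₗ
      (LinearMap.inr F F (F × F)))).comap (LinearMap.range Φ).subtype) ?_ ?_
    · rintro ⟨u, hu⟩ ⟨⟨c, e⟩, hce⟩
      have h1 : u = c • v' + e • w' := by
        have h2 : (u : V) = Φ (0, 0, c, e) := hce.symm
        rw [h2, hΦ]; simp
      change Q u = 0
      rw [h1, Q_add, QuadraticMap.map_smul, QuadraticMap.map_smul, polar_smul_left, polar_smul_right,
        hv'w', hs, hs]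
      simp
    · have hle : LinearMap.range (Φ ∘ₗ (LinearMap.inr F F (F × F × F)) ∘ₗ (LinearMap.inr F F (F × F))) ≤
          LinearMap.range Φ := by
        rintro _ ⟨x, rfl⟩
        exact ⟨_, rfl⟩
      rw [hd, (Submodule.comapSubtypeEquivOfLe hle).finrank_eq, LinearMap.finrank_range_of_inj]
      · simp only [Module.finrank_prod, Module.finrank_self]; norm_num
      · refine hinj.comp ?_
        intro x y hxy
        have h3 := congrArg (fun p : F × F × F × F => p.2.2) hxy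
        exact h3

end Block

/-- **structure** -/
theorem jtwo_struct [Finite F] (n : ℕ) :
    ∀ {V : Type v} [AddCommGroup V] [Module F V] [FiniteDimensional F V] {Q : QuadraticForm F V},
    Nondeg Q → finrank F V = n → ∀ {T : V ≃ₗ[F] V}, IsJTwo Q T →
    ∃ (k : ℕ) (B : Submodule F V), (∀ v ∈ B, T v ∈ B) ∧ Nondeg (res Q B) ∧ finrank F B = 4 * k ∧
      IsPlus (res Q B) ∧ (∀ v ∈ perp Q B, T v = v) ∧
      ∀ j ≤ k, ∃ B' ≤ B, (∀ v ∈ B', T v ∈ B') ∧ Nondeg (res Q B') ∧ finrank F B' = 4 * j ∧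
        IsPlus (res Q B') := by
  induction n using Nat.strong_induction_on with
  | _ n ih =>
  intro V _ _ _ Q hQ hn T hT
  have hbot : ∀ {V : Type v} [AddCommGroup V] [Module F V] [FiniteDimensional F V]
      {Q : QuadraticForm F V} {T : V ≃ₗ[F] V}, (∀ v ∈ (⊥ : Submodule F V), T v ∈ (⊥ : Submodule F V)) ∧
      Nondeg (res Q (⊥ : Submodule F V)) ∧ finrank F (⊥ : Submodule F V) = 4 * 0 ∧
      IsPlus (res Q (⊥ : Submodule F V)) := by
    intro V _ _ _ Q T
    refine ⟨?_, ?_, by rw [finrank_bot], isPlus_of_finrank_zero (finrank_bot F V)⟩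
    · intro w hw
      rw [Submodule.mem_bot] at hw ⊢
      rw [hw, map_zero]
    · rw [nondeg_res_iff]
      intro x hx _
      exact (Submodule.mem_bot F).1 hx
  by_cases htriv : ∀ v, T v = v
  · obtain ⟨h1, h2, h3, h4⟩ := hbot (Q := Q) (T := T)
    refine ⟨0, ⊥, h1, h2, h3, h4, fun v _ => htriv v, fun j hj => ⟨⊥, le_rfl, h1, h2, ?_, h4⟩⟩
    rw [finrank_bot]; omega
  push Not at htriv
  obtain ⟨v, hv⟩ := htriv
  obtain ⟨C, hCT, hC, hCd, hCp⟩ := hT.exists_block hQ hv
  have hPT := map_mem_perp hT.mem hCT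
  have hd := finrank_add_perp hQ C
  obtain ⟨k, B, h1, h2, h3, h4, h5, h6⟩ := ih (n - 4) (by omega) (nondeg_perp hQ hC) (by omega)
    (hT.res hPT)
  obtain ⟨e, he⟩ := exists_res_equiv (Q := Q) (perp Q C) B
  have hle := map_subtype_le_perp (Q := Q) B
  refine ⟨k + 1, C ⊔ B.map (perp Q C).subtype, inv_sup hCT (inv_map_subtype hPT h1),
    nondeg_sup hC (nondeg_of_equiv e he h2) hle, ?_, ?_, ?_, ?_⟩
  · rw [finrank_sup_perp hC hle, hCd, ← e.finrank_eq, h3]; ring
  · rw [isPlus_sup_iff hC (nondeg_of_equiv e he h2) hle (by rw [hCd]; decide)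
      (by rw [← e.finrank_eq, h3]; exact ⟨2 * k, by ring⟩), ← isPlus_iff_of_equiv e he]
    exact iff_of_true hCp h4
  · intro v hv
    have hv1 : v ∈ perp Q C := perp_anti le_sup_left hv
    have hv2 : (⟨v, hv1⟩ : perp Q C) ∈ perp (res Q (perp Q C)) B := by
      intro b hb
      have h7 : (b : V) ∈ B.map (perp Q C).subtype := ⟨b, hb, rfl⟩
      exact hv _ (Submodule.mem_sup_right h7)
    exact congrArg Subtype.val (h5 _ hv2)
  · intro j hj
    rcases Nat.eq_zero_or_pos j with rfl | hj0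
    · obtain ⟨h1, h2, h3, h4⟩ := hbot (Q := Q) (T := T)
      exact ⟨⊥, bot_le, h1, h2, h3, h4⟩
    obtain ⟨B', g0, g1, g2, g3, g4⟩ := h6 (j - 1) (by omega)
    obtain ⟨e', he'⟩ := exists_res_equiv (Q := Q) (perp Q C) B'
    have hle' := map_subtype_le_perp (Q := Q) B'
    refine ⟨C ⊔ B'.map (perp Q C).subtype, sup_le_sup_left (Submodule.map_mono g0) _,
      inv_sup hCT (inv_map_subtype hPT g1), nondeg_sup hC (nondeg_of_equiv e' he' g2) hle', ?_, ?_⟩
    · rw [finrank_sup_perp hC hle', hCd, ← e'.finrank_eq, g3]; omega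
    · rw [isPlus_sup_iff hC (nondeg_of_equiv e' he' g2) hle' (by rw [hCd]; decide)
        (by rw [← e'.finrank_eq, g3]; exact ⟨2 * (j - 1), by ring⟩), ← isPlus_iff_of_equiv e' he']
      exact iff_of_true hCp g4

end Cfsg.Agent.H958
end

-- part: H958/JTwoExists
section
/-!
# Invariant subspaces of isometries with `(T - 1) ^ 2 = 0`, `polar v (T v) = 0`
-/

set_option autoImplicit false

namespace Cfsg.Agent.H958

open Module QuadraticMap Cfsg.Agent.LieClassical.OrthCore Cfsg.Agent.LieClassical.OrthTrans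
  Cfsg.Agent.H955 Cfsg.Agent.LieClassical.OrthFinite

universe u v w
variable {F : Type u} [Field F] [Finite F]
  {V : Type v} [AddCommGroup V] [Module F V] [FiniteDimensional F V] {Q : QuadraticForm F V}
  {T : V ≃ₗ[F] V}

theorem exists_sub_type {P : Submodule F V} (hP : Nondeg (res Q P)) {n' t : ℕ}
    (hd : finrank F P = 2 * n') (ht : t ≤ n') (δ : Prop) (h0 : t = 0 → δ)
    (h1 : t = n' → (δ ↔ IsPlus (res Q P))) :
    ∃ X ≤ P, Nondeg (res Q X) ∧ finrank F X = 2 * t ∧ (IsPlus (res Q X) ↔ δ) := by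
  rcases Nat.eq_zero_or_pos t with rfl | ht0
  · refine ⟨⊥, bot_le, ?_, by rw [finrank_bot], iff_of_true (isPlus_of_finrank_zero (finrank_bot F V))
      (h0 rfl)⟩
    rw [nondeg_res_iff]
    intro x hx _
    exact (Submodule.mem_bot F).1 hx
  rcases Nat.eq_or_lt_of_le ht with rfl | hlt
  · exact ⟨P, le_rfl, hP, hd, (h1 rfl).symm⟩
  obtain ⟨X, hX, hXd, hXp⟩ := exists_subspace hP (by rw [hd]; exact even_two_mul _) t ht0 (by omega) δ
  obtain ⟨e, he⟩ := exists_res_equiv (Q := Q) P X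
  exact ⟨X.map P.subtype, Submodule.map_subtype_le _ _, nondeg_of_equiv e he hX,
    by rw [← e.finrank_eq, hXd], by rw [← isPlus_iff_of_equiv e he, hXp]⟩

/-- combination of blocks and a piece of the trivial part -/
theorem jtwo_combine (hQ : Nondeg Q) {d : ℕ} (hd : finrank F V = 2 * d) (hT : IsJTwo Q T) :
    ∃ k, 2 * k ≤ d ∧ (2 * k = d → IsPlus Q) ∧ ∀ j t, j ≤ k → t ≤ d - 2 * k → ∀ δ : Prop, (t = 0 → δ) →
      (t = d - 2 * k → (δ ↔ IsPlus Q)) →
      ∃ W : Submodule F V, (∀ v ∈ W, T v ∈ W) ∧ Nondeg (res Q W) ∧ finrank F W = 2 * (2 * j + t) ∧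
        (IsPlus (res Q W) ↔ δ) := by
  obtain ⟨k, B, hBT, hB, hBd, hBp, hfix, hsub⟩ := jtwo_struct _ hQ rfl hT
  have h1 := finrank_add_perp hQ B
  have h2 := isPlus_iff_perp hQ hB (by rw [hd]; exact even_two_mul d) (by rw [hBd]; exact ⟨2 * k, by ring⟩)
  have hk : 2 * k ≤ d := by omega
  refine ⟨k, hk, ?_, ?_⟩
  · intro h
    rw [h2]
    exact iff_of_true hBp (isPlus_of_finrank_zero (by omega))
  · intro j t hj ht δ h0 h3
    obtain ⟨B', hB'B, hB'T, hB', hB'd, hB'p⟩ := hsub j hj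
    obtain ⟨X, hXP, hX, hXd, hXp⟩ := exists_sub_type (n' := d - 2 * k) (nondeg_perp hQ hB) (by omega) ht δ h0
      (fun h => by
        rw [h3 h, h2]
        exact ⟨fun h => h.1 hBp, fun h => iff_of_true hBp h⟩)
    have hle : X ≤ perp Q B' := hXP.trans (perp_anti hB'B)
    refine ⟨B' ⊔ X, inv_sup hB'T (fun v hv => ?_), nondeg_sup hB' hX hle, ?_, ?_⟩
    · rw [hfix v (hXP hv)]; exact hv
    · rw [finrank_sup_perp hB' hle, hB'd, hXd]; ring
    · rw [isPlus_sup_iff hB' hX hle (by rw [hB'd]; exact ⟨2 * j, by ring⟩)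
        (by rw [hXd]; exact even_two_mul t), hXp]
      exact ⟨fun h => h.1 hB'p, fun h => iff_of_true hB'p h⟩

theorem jtwo_plus (hQ : Nondeg Q) {d : ℕ} (hd : finrank F V = 2 * d) (hT : IsJTwo Q T) (hp : IsPlus Q)
    {s : ℕ} (hs : s < d) (h : Odd d ∨ Even s) :
    ∃ W : Submodule F V, (∀ v ∈ W, T v ∈ W) ∧ Nondeg (res Q W) ∧ finrank F W = 2 * s ∧
        (IsPlus (res Q W) ↔ True) := by
  obtain ⟨k, hk, -, hW⟩ := jtwo_combine hQ hd hT
  have key : ∃ j t, j ≤ k ∧ t ≤ d - 2 * k ∧ s = 2 * j + t := by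
    rcases Nat.lt_or_ge k (s / 2) with h1 | h1
    · exact ⟨k, s - 2 * k, le_rfl, by omega, by omega⟩
    · refine ⟨s / 2, s % 2, h1, ?_, by omega⟩
      rcases h with ⟨e, he⟩ | ⟨e, he⟩ <;> omega
  obtain ⟨j, t, hj, ht, rfl⟩ := key
  exact hW j t hj ht True (fun _ => trivial) (fun _ => iff_of_true trivial hp)

theorem jtwo_minus (hQ : Nondeg Q) {d : ℕ} (hd : finrank F V = 2 * d) (hT : IsJTwo Q T) (hp : ¬ IsPlus Q)
    {s : ℕ} (hs0 : 0 < s) (hs : s < d) (h : Even d ∨ Odd s) :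
    ∃ W : Submodule F V, (∀ v ∈ W, T v ∈ W) ∧ Nondeg (res Q W) ∧ finrank F W = 2 * s ∧
        (IsPlus (res Q W) ↔ False) := by
  obtain ⟨k, hk, hk', hW⟩ := jtwo_combine hQ hd hT
  have hk2 : 2 * k ≠ d := fun h => hp (hk' h)
  have key : ∃ j t, j ≤ k ∧ t ≤ d - 2 * k ∧ 0 < t ∧ s = 2 * j + t := by
    rcases Nat.lt_or_ge (2 * k) s with h1 | h1
    · exact ⟨k, s - 2 * k, le_rfl, by omega, by omega, by omega⟩
    · rcases Nat.even_or_odd s with ⟨e, he⟩ | ⟨e, he⟩
      · refine ⟨e - 1, 2, by omega, ?_, by omega, by omega⟩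
        rcases h with ⟨e', he'⟩ | ⟨e', he'⟩ <;> omega
      · exact ⟨e, 1, by omega, by omega, by omega, by omega⟩
  obtain ⟨j, t, hj, ht, ht0, rfl⟩ := key
  exact hW j t hj ht False (fun h => absurd h (by omega)) (fun _ => iff_of_false id hp)

end Cfsg.Agent.H958
end

-- part: H958/CharTwo
section
/-!
# Involutions in characteristic two
-/

set_option autoImplicit false

namespace Cfsg.Agent.H958

open Module QuadraticMap Cfsg.Agent.LieClassical.OrthCore Cfsg.Agent.LieClassical.OrthTrans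
  Cfsg.Agent.H955 Cfsg.Agent.LieClassical.OrthFinite

universe u v w
variable {F : Type u} [Field F]

section Basic

variable {V : Type v} [AddCommGroup V] [Module F V] {Q : QuadraticForm F V} {T : V ≃ₗ[F] V}

theorem add_self_zero (h2 : (2 : F) = 0) (x : F) : x + x = 0 := by rw [← two_mul, h2, zero_mul]

theorem eq_of_add_zero (h2 : (2 : F) = 0) {x y : F} (h : x + y = 0) : x = y := by
  have := add_self_zero h2 y
  linear_combination h - this

theorem neg_eq_self' (h2 : (2 : F) = 0) (v : V) : -v = v := by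
  have h : (2 : F) • v = 0 := by rw [h2, zero_smul]
  rw [two_smul] at h
  exact neg_eq_of_add_eq_zero_left h

theorem polar_self_zero (h2 : (2 : F) = 0) (v : V) : polar Q v v = 0 := by
  rw [polar_self', h2, zero_mul]

theorem polar_T (hT : T ∈ O Q) (hTT : ∀ v, T (T v) = v) (v w : V) :
    polar Q v (T w) = polar Q (T v) w := by
  rw [← polar_map hT v (T w), hTT]

theorem beta_T (hT : T ∈ O Q) (v : V) : polar Q (T v) (T (T v)) = polar Q v (T v) :=
  polar_map hT _ _

theorem beta_add (h2 : (2 : F) = 0) (hT : T ∈ O Q) (hTT : ∀ v, T (T v) = v) (v w : V) :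
    polar Q (v + w) (T (v + w)) = polar Q v (T v) + polar Q w (T w) := by
  have h1 : polar Q w (T v) = polar Q v (T w) := by
    rw [polar_T hT hTT, polar_comm]
  rw [map_add, polar_add_left, polar_add_right, polar_add_right, h1]
  have := add_self_zero h2 (polar Q v (T w))
  linear_combination this

theorem beta_smul (c : F) (v : V) : polar Q (c • v) (T (c • v)) = c ^ 2 * polar Q v (T v) := by
  rw [map_smul, polar_smul_left, polar_smul_right, smul_eq_mul, smul_eq_mul]
  ring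

/-- if the form `polar v (T v)` vanishes -/
theorem isJTwo_of_beta (h2 : (2 : F) = 0) (hT : T ∈ O Q) (hTT : ∀ v, T (T v) = v)
    (hβ : ∀ v, polar Q v (T v) = 0) : IsJTwo Q T where
  mem := hT
  sq v := by
    rw [map_sub, hTT]
    have := neg_eq_self' h2 (v - T v)
    rw [neg_sub] at this
    exact this.symm
  alt v := by rw [polar_sub_right, hβ, polar_self_zero h2, sub_self]

/-- the plane `⟨v, T v⟩`. -/
theorem planeTwo [FiniteDimensional F V] (h2 : (2 : F) = 0) (hT : T ∈ O Q) (hTT : ∀ v, T (T v) = v) {v : V}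
    (hv : polar Q v (T v) ≠ 0) :
    ∃ P : Submodule F V, (∀ x, x ∈ P ↔ ∃ a b : F, x = a • v + b • T v) ∧ (∀ w ∈ P, T w ∈ P) ∧
      Nondeg (res Q P) ∧ finrank F P = 2 ∧
      (IsPlus (res Q P) ↔ ∃ a b : F, (a ≠ 0 ∨ b ≠ 0) ∧ (a ^ 2 + b ^ 2) * Q v + a * b * polar Q v (T v) = 0) := by
  let Φ : (F × F) →ₗ[F] V :=
    LinearMap.coprod (LinearMap.toSpanSingleton F V v) (LinearMap.toSpanSingleton F V (T v))
  have hΦ : ∀ a b, Φ (a, b) = a • v + b • T v := fun _ _ => rfl
  have hrad : ∀ a b, polar Q (Φ (a, b)) v = 0 → polar Q (Φ (a, b)) (T v) = 0 → a = 0 ∧ b = 0 := by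
    intro a b h1 h3
    rw [hΦ, polar_add_left, polar_smul_left, polar_smul_left, polar_self_zero h2, smul_zero, zero_add,
      polar_comm, smul_eq_mul] at h1
    rw [hΦ, polar_add_left, polar_smul_left, polar_smul_left, polar_self_zero h2, smul_zero, add_zero,
      smul_eq_mul] at h3
    exact ⟨(mul_eq_zero.1 h3).resolve_right hv, (mul_eq_zero.1 h1).resolve_right hv⟩
  have hinj : Function.Injective Φ := by
    rw [← LinearMap.ker_eq_bot, LinearMap.ker_eq_bot']
    rintro ⟨a, b⟩ h0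
    obtain ⟨rfl, rfl⟩ := hrad a b (by rw [h0, polar_zero_left]) (by rw [h0, polar_zero_left])
    rfl
  have hmv : v ∈ LinearMap.range Φ := ⟨(1, 0), by rw [hΦ]; simp⟩
  have hmv' : T v ∈ LinearMap.range Φ := ⟨(0, 1), by rw [hΦ]; simp⟩
  have hnd : Nondeg (res Q (LinearMap.range Φ)) := by
    rw [nondeg_res_iff]
    rintro _ ⟨⟨a, b⟩, rfl⟩ hx
    obtain ⟨rfl, rfl⟩ := hrad a b (hx v hmv) (hx (T v) hmv')
    exact map_zero Φ
  have hd : finrank F (LinearMap.range Φ) = 2 := by
    rw [LinearMap.finrank_range_of_inj hinj]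
    simp only [Module.finrank_prod, Module.finrank_self]
  have hmem : ∀ x, x ∈ LinearMap.range Φ ↔ ∃ a b : F, x = a • v + b • T v := by
    intro x
    constructor
    · rintro ⟨⟨a, b⟩, rfl⟩
      exact ⟨a, b, rfl⟩
    · rintro ⟨a, b, rfl⟩
      exact ⟨(a, b), rfl⟩
  have hQ : ∀ a b : F, Q (a • v + b • T v) = (a ^ 2 + b ^ 2) * Q v + a * b * polar Q v (T v) := by
    intro a b
    rw [Q_add, QuadraticMap.map_smul, QuadraticMap.map_smul, polar_smul_left, polar_smul_right, hT]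
    simp only [smul_eq_mul]
    ring
  refine ⟨LinearMap.range Φ, hmem, ?_, hnd, hd, ?_⟩
  · intro w hw
    obtain ⟨a, b, rfl⟩ := (hmem w).1 hw
    rw [hmem]
    refine ⟨b, a, ?_⟩
    rw [map_add, map_smul, map_smul, hTT, add_comm]
  · constructor
    · rintro ⟨U, hU, hUd⟩
      rw [hd] at hUd
      obtain ⟨x, hx, hx0⟩ := exists_ne_zero_of_finrank_pos (U := U) (by omega)
      obtain ⟨a, b, hab⟩ := (hmem x).1 x.2
      refine ⟨a, b, ?_, ?_⟩
      · by_contra hcon
        push Not at hcon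
        apply hx0
        apply Subtype.ext
        rw [hab, hcon.1, hcon.2, zero_smul, zero_smul, add_zero]
        rfl
      · have h3 : Q (x : V) = 0 := hU x hx
        rwa [hab, hQ] at h3
    · rintro ⟨a, b, hab, h0⟩
      rw [← hQ] at h0
      have hx : a • v + b • T v ∈ LinearMap.range Φ := (hmem _).2 ⟨a, b, rfl⟩
      refine isPlus_of_le hnd (U := F ∙ (⟨_, hx⟩ : ↥(LinearMap.range Φ))) ?_ ?_
      · intro u hu
        obtain ⟨c, rfl⟩ := Submodule.mem_span_singleton.1 hu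
        rw [QuadraticMap.map_smul]
        have : res Q _ (⟨_, hx⟩ : ↥(LinearMap.range Φ)) = 0 := h0
        rw [this, smul_zero]
      · rw [hd, finrank_span_singleton]
        intro h1
        have h3 := congrArg Subtype.val h1
        have h3' : Φ (a, b) = 0 := h3
        obtain ⟨rfl, rfl⟩ := hrad a b (by rw [h3', polar_zero_left]) (by rw [h3', polar_zero_left])
        rcases hab with h | h <;> exact h rfl

end Basic

section Finite

variable [Finite F] {V : Type v} [AddCommGroup V] [Module F V] [FiniteDimensional F V]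
  {Q : QuadraticForm F V} {T : V ≃ₗ[F] V}

theorem exists_sqrt (h2 : (2 : F) = 0) (c : F) : ∃ t, t ^ 2 = c := by
  have hchar : CharP F 2 := CharTwo.of_one_ne_zero_of_two_eq_zero one_ne_zero h2
  obtain ⟨t, ht⟩ := (frobeniusEquiv F 2).surjective c
  exact ⟨t, ht⟩

/-- the vector representing the form `polar v (T v)`. -/
theorem exists_u (h2 : (2 : F) = 0) (hQ : Nondeg Q) (hT : T ∈ O Q) (hTT : ∀ v, T (T v) = v) :
    ∃ u, ∀ v, polar Q v (T v) = polar Q u v ^ 2 := by
  have hchar : CharP F 2 := CharTwo.of_one_ne_zero_of_two_eq_zero one_ne_zero h2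
  let e := frobeniusEquiv F 2
  have he : ∀ x, e x = x ^ 2 := fun _ => rfl
  let l : V →ₗ[F] F :=
    { toFun := fun v => e.symm (polar Q v (T v))
      map_add' := by
        intro v w
        rw [beta_add h2 hT hTT, map_add]
      map_smul' := by
        intro c v
        rw [beta_smul, map_mul, ← he c, RingEquiv.symm_apply_apply, RingHom.id_apply, smul_eq_mul] }
  refine ⟨(LinearMap.BilinForm.toDual (polarBilin Q) (nondegenerate_of_nondeg hQ)).symm l, fun v => ?_⟩
  have h1 := LinearMap.BilinForm.apply_toDual_symm_apply (hB := nondegenerate_of_nondeg hQ) l v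
  have h3 : polar Q ((LinearMap.BilinForm.toDual (polarBilin Q) (nondegenerate_of_nondeg hQ)).symm l) v = l v :=
    h1
  rw [h3, ← he]
  exact (e.apply_symm_apply _).symm

/-- planes of both types -/
theorem exists_plane_type (h2 : (2 : F) = 0) (hQ : Nondeg Q) (hd : 4 ≤ finrank F V) (hT : T ∈ O Q)
    (hTT : ∀ v, T (T v) = v) (hβ : ∃ v, polar Q v (T v) ≠ 0) (δ : Prop) :
    ∃ P : Submodule F V, (∀ w ∈ P, T w ∈ P) ∧ Nondeg (res Q P) ∧ finrank F P = 2 ∧
      (IsPlus (res Q P) ↔ δ) := by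
  obtain ⟨v₀, hv₀⟩ := hβ
  obtain ⟨u, hu⟩ := exists_u h2 hQ hT hTT
  have huv : polar Q u v₀ ≠ 0 := by
    intro h0
    rw [hu, h0] at hv₀
    exact hv₀ (zero_pow two_ne_zero)
  -- an anisotropic vector orthogonal to `u` and `v₀`
  obtain ⟨k, hk, hku, hkv⟩ : ∃ k, Q k ≠ 0 ∧ polar Q u k = 0 ∧ polar Q v₀ k = 0 := by
    let Φ : (F × F) →ₗ[F] V :=
      LinearMap.coprod (LinearMap.toSpanSingleton F V u) (LinearMap.toSpanSingleton F V v₀)
    have hΦ : ∀ a b, Φ (a, b) = a • u + b • v₀ := fun _ _ => rfl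
    have hmu : u ∈ LinearMap.range Φ := ⟨(1, 0), by rw [hΦ]; simp⟩
    have hmv : v₀ ∈ LinearMap.range Φ := ⟨(0, 1), by rw [hΦ]; simp⟩
    have hnd : Nondeg (res Q (LinearMap.range Φ)) := by
      rw [nondeg_res_iff]
      rintro _ ⟨⟨a, b⟩, rfl⟩ hx
      have h1 := hx u hmu
      have h3 := hx v₀ hmv
      rw [hΦ, polar_add_left, polar_smul_left, polar_smul_left, polar_self_zero h2, smul_zero, zero_add,
        polar_comm, smul_eq_mul] at h1
      rw [hΦ, polar_add_left, polar_smul_left, polar_smul_left, polar_self_zero h2, smul_zero, add_zero,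
        smul_eq_mul] at h3
      rw [hΦ, (mul_eq_zero.1 h3).resolve_right huv, (mul_eq_zero.1 h1).resolve_right huv, zero_smul,
        zero_smul, add_zero]
    have hdΦ : finrank F (LinearMap.range Φ) ≤ 2 := by
      have := LinearMap.finrank_range_le Φ
      rw [Module.finrank_prod, Module.finrank_self] at this
      omega
    have h3 := finrank_add_perp hQ (LinearMap.range Φ)
    obtain ⟨k, hk⟩ := exists_aniso_vec (nondeg_perp hQ hnd) (by omega)
    exact ⟨k, hk, k.2 u hmu, k.2 v₀ hmv⟩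
  -- every value is taken
  have hval : ∀ c : F, ∃ v, Q v = c ∧ polar Q v (T v) = polar Q v₀ (T v₀) := by
    intro c
    obtain ⟨t, ht⟩ := exists_sqrt h2 ((c - Q v₀) / Q k)
    refine ⟨v₀ + t • k, ?_, ?_⟩
    · rw [Q_add, QuadraticMap.map_smul, polar_smul_right, hkv, smul_zero, add_zero, smul_eq_mul, ← pow_two,
        ht, div_mul_cancel₀ _ hk]
      ring
    · rw [beta_add h2 hT hTT, beta_smul, hu k, hku]
      ring
  by_cases hδ : δ
  · obtain ⟨v, hv, hβ⟩ := hval 0
    obtain ⟨P, -, h1, h3, h4, h5⟩ := planeTwo h2 hT hTT (v := v) (by rw [hβ]; exact hv₀)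
    refine ⟨P, h1, h3, h4, iff_of_true (h5.2 ⟨1, 0, Or.inl one_ne_zero, ?_⟩) hδ⟩
    rw [hv]; ring
  · -- a value which makes the plane anisotropic
    set b₀ := polar Q v₀ (T v₀) with hb₀
    obtain ⟨c, hc⟩ : ∃ c, ∀ x : F, b₀ * x / (x ^ 2 + 1) ≠ c := by
      by_contra hcon
      push Not at hcon
      have hs : Function.Surjective (fun x : F => b₀ * x / (x ^ 2 + 1)) := hcon
      have hi := Finite.injective_iff_surjective.2 hs
      have h01 : (0 : F) = 1 := by
        apply hi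
        have h11 : (1 : F) ^ 2 + 1 = 0 := by rw [one_pow]; exact add_self_zero h2 1
        change b₀ * 0 / (0 ^ 2 + 1) = b₀ * 1 / (1 ^ 2 + 1)
        rw [h11, div_zero, mul_zero, zero_div]
      exact zero_ne_one h01
    obtain ⟨v, hv, hβ⟩ := hval c
    obtain ⟨P, -, h1, h3, h4, h5⟩ := planeTwo h2 hT hTT (v := v) (by rw [hβ]; exact hv₀)
    refine ⟨P, h1, h3, h4, iff_of_false (fun hp => ?_) hδ⟩
    obtain ⟨a, b, hab, h0⟩ := h5.1 hp
    rw [hv, hβ] at h0
    have hc0 : c ≠ 0 := by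
      intro h
      apply hc 0
      rw [h]; simp
    by_cases hb : b = 0
    · rw [hb] at h0 hab
      have h6 : a ^ 2 * c = 0 := by linear_combination h0
      rcases mul_eq_zero.1 h6 with h7 | h7
      · rcases hab with h8 | h8
        · exact h8 (pow_eq_zero_iff two_ne_zero |>.1 h7)
        · exact h8 rfl
      · exact hc0 h7
    · have h6 : ((a / b) ^ 2 + 1) * c + (a / b) * b₀ = 0 := by
        field_simp
        linear_combination h0
      by_cases h7 : (a / b) ^ 2 + 1 = 0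
      · rw [h7, zero_mul, zero_add] at h6
        rcases mul_eq_zero.1 h6 with h8 | h8
        · rw [h8] at h7
          simp at h7
        · exact hv₀ h8
      · apply hc (a / b)
        rw [div_eq_iff h7]
        have h9 := eq_of_add_zero h2 h6
        rw [mul_comm c, h9, mul_comm]

/-- choice of the first plane -/
theorem exists_first_plane (h2 : (2 : F) = 0) (hQ : Nondeg Q) (hT : T ∈ O Q)
    (hTT : ∀ v, T (T v) = v) (hβ : ∃ v, polar Q v (T v) ≠ 0) :
    ∃ P : Submodule F V, (∀ w ∈ P, T w ∈ P) ∧ Nondeg (res Q P) ∧ finrank F P = 2 ∧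
      ((∃ w ∈ perp Q P, polar Q w (T w) ≠ 0) ∨ ∀ w ∈ perp Q P, T w = w) := by
  obtain ⟨v₀, hv₀⟩ := hβ
  obtain ⟨P, hmem, hPT, hP, hPd, -⟩ := planeTwo h2 hT hTT hv₀
  by_cases h1 : ∃ w ∈ perp Q P, polar Q w (T w) ≠ 0
  · exact ⟨P, hPT, hP, hPd, Or.inl h1⟩
  by_cases h3 : ∀ w ∈ perp Q P, T w = w
  · exact ⟨P, hPT, hP, hPd, Or.inr h3⟩
  push Not at h1 h3
  obtain ⟨v', hv', hne⟩ := h3
  have hPT' := map_mem_perp hT hPT
  have hv₀P : v₀ ∈ P := (hmem _).2 ⟨1, 0, by simp⟩
  have hTv₀P : T v₀ ∈ P := hPT _ hv₀P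
  have hPn := nondeg_perp hQ hP
  -- `w''` in the complement with `polar w'' (T v' - v') = 1`
  have hn0 : (⟨T v' - v', Submodule.sub_mem _ (hPT' v' hv') hv'⟩ : perp Q P) ≠ 0 := by
    intro h0
    exact hne (sub_eq_zero.1 (congrArg Subtype.val h0))
  obtain ⟨w₁, hw₁⟩ := hPn.exists_polar_eq hn0 1
  have hw₁' : polar Q (T v' - v') (w₁ : V) = 1 := hw₁
  have hβv' := h1 v' hv'
  set n := T v' - v' with hn
  have hTn : T n = n := by
    rw [hn, map_sub, hTT]
    have := neg_eq_self' h2 (v' - T v')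
    rw [neg_sub] at this
    exact this.symm
  -- `w' = b w₁ + b (w₁, v') (T w₁ - w₁)`
  set b := polar Q v₀ (T v₀) with hb
  set w₁v : V := (w₁ : V) with hw₁v
  have hw₁P : w₁v ∈ perp Q P := w₁.2
  have e1 : polar Q w₁v n = 1 := by rw [polar_comm]; exact hw₁'
  have hβw₁ := h1 w₁v hw₁P
  set y := T w₁v - w₁v with hy
  have e2 : polar Q y v' = 1 := by
    have h4 : polar Q (T w₁v) v' = polar Q w₁v (T v') := (polar_T hT hTT w₁v v').symm
    rw [hy, polar_sub_left, h4, ← polar_sub_right, ← hn, e1]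
  have e3 : polar Q y n = 0 := by
    have h4 : polar Q (T w₁v) n = polar Q w₁v n := by rw [← polar_T hT hTT, hTn]
    rw [hy, polar_sub_left, h4, sub_self]
  set w' := b • w₁v + (b * polar Q w₁v v') • y with hw'
  have hyP : y ∈ perp Q P := Submodule.sub_mem _ (hPT' _ hw₁P) hw₁P
  have hw'P : w' ∈ perp Q P := Submodule.add_mem _ (Submodule.smul_mem _ _ hw₁P) (Submodule.smul_mem _ _ hyP)
  have e4 : polar Q w' v' = 0 := by
    rw [hw', polar_add_left, polar_smul_left, polar_smul_left, e2, smul_eq_mul, smul_eq_mul, mul_one]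
    exact add_self_zero h2 _
  have e5 : polar Q w' n = b := by
    rw [hw', polar_add_left, polar_smul_left, polar_smul_left, e1, e3, smul_eq_mul, smul_eq_mul, mul_one,
      mul_zero, add_zero]
  have e6 : polar Q w' (T v') = b := by
    have : T v' = n + v' := by rw [hn]; abel
    rw [this, polar_add_right, e5, e4, add_zero]
  have hv : polar Q (v₀ + v') (T (v₀ + v')) ≠ 0 := by
    rw [beta_add h2 hT hTT, hβv', add_zero]; exact hv₀
  obtain ⟨P', hmem', hPT2, hP', hPd', -⟩ := planeTwo h2 hT hTT hv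
  refine ⟨P', hPT2, hP', hPd', Or.inl ⟨v₀ + w', ?_, ?_⟩⟩
  · have a1 : polar Q (v₀ + w') (v₀ + v') = 0 := by
      rw [polar_add_left, polar_add_right, polar_add_right, polar_self_zero h2, hv' _ hv₀P, e4,
        polar_comm, hw'P _ hv₀P]
      simp
    have a2 : polar Q (v₀ + w') (T (v₀ + v')) = 0 := by
      rw [map_add, polar_add_left, polar_add_right, polar_add_right, hPT' v' hv' _ hv₀P, e6,
        polar_comm Q w' (T v₀), hw'P _ hTv₀P, add_zero, zero_add, ← hb]
      exact add_self_zero h2 _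
    rw [mem_perp']
    intro x hx
    obtain ⟨a, c, rfl⟩ := (hmem' x).1 hx
    rw [polar_add_right, polar_smul_right, polar_smul_right, a1, a2, smul_zero, smul_zero, add_zero]
  · rw [beta_add h2 hT hTT, h1 w' hw'P, add_zero]; exact hv₀

end Finite

/-- **characteristic two**: an isometric involution with `polar v (T v) ≠ 0` for some `v` leaves invariant
nondegenerate subspaces of every even dimension and every type. -/
theorem charTwo_inv [Finite F] (h2 : (2 : F) = 0) (s : ℕ) :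
    ∀ {V : Type v} [AddCommGroup V] [Module F V] [FiniteDimensional F V] {Q : QuadraticForm F V},
    Nondeg Q → Even (finrank F V) → ∀ {T : V ≃ₗ[F] V}, T ∈ O Q → (∀ v, T (T v) = v) →
    (∃ v, polar Q v (T v) ≠ 0) → 0 < s → 2 * s + 2 ≤ finrank F V → ∀ δ : Prop,
    ∃ W : Submodule F V, (∀ w ∈ W, T w ∈ W) ∧ Nondeg (res Q W) ∧ finrank F W = 2 * s ∧
      (IsPlus (res Q W) ↔ δ) := by
  induction s with
  | zero => intro V _ _ _ Q _ _ T _ _ _ h; exact absurd h (lt_irrefl 0)
  | succ s ih =>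
    intro V _ _ _ Q hQ he T hT hTT hβ _ hd δ
    rcases Nat.eq_zero_or_pos s with rfl | hs
    · obtain ⟨P, h1, h3, h4, h5⟩ := exists_plane_type h2 hQ (by omega) hT hTT hβ δ
      exact ⟨P, h1, h3, by rw [h4], h5⟩
    · obtain ⟨P, hPT, hP, hPd, hcase⟩ := exists_first_plane h2 hQ hT hTT hβ
      have h1 := finrank_add_perp hQ P
      have hPT' := map_mem_perp hT hPT
      have hPn := nondeg_perp hQ hP
      have hPe : Even (finrank F (perp Q P)) := by
        obtain ⟨n, hn⟩ := he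
        exact ⟨n - 1, by omega⟩
      obtain ⟨W, hWT, hW, hWd, hWp⟩ : ∃ W : Submodule F (perp Q P), (∀ w ∈ W, resT T _ hPT' w ∈ W) ∧
          Nondeg (res (res Q (perp Q P)) W) ∧ finrank F W = 2 * s ∧
          (IsPlus (res (res Q (perp Q P)) W) ↔ (δ ↔ IsPlus (res Q P))) := by
        rcases hcase with ⟨w, hw, hwβ⟩ | hfix
        · exact ih hPn hPe (resT_mem hT hPT') (fun v => Subtype.ext (hTT v)) ⟨⟨w, hw⟩, hwβ⟩ hs (by omega) _
        · obtain ⟨W, hW, hWd, hWp⟩ := exists_subspace hPn hPe s hs (by omega) (δ ↔ IsPlus (res Q P))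
          refine ⟨W, fun w hw => ?_, hW, hWd, hWp⟩
          have : resT T _ hPT' w = w := Subtype.ext (hfix w w.2)
          rw [this]; exact hw
      obtain ⟨e, he⟩ := exists_res_equiv (Q := Q) (perp Q P) W
      have hle := map_subtype_le_perp (Q := Q) W
      refine ⟨P ⊔ W.map (perp Q P).subtype, inv_sup hPT (inv_map_subtype hPT' hWT),
        nondeg_sup hP (nondeg_of_equiv e he hW) hle, ?_, ?_⟩
      · rw [finrank_sup_perp hP hle, hPd, ← e.finrank_eq, hWd]; ring
      · rw [isPlus_sup_iff hP (nondeg_of_equiv e he hW) hle (by rw [hPd]; decide)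
          (by rw [← e.finrank_eq, hWd]; exact even_two_mul s), ← isPlus_iff_of_equiv e he, hWp]
        tauto

end Cfsg.Agent.H958
end

-- part: H958/TransTwo
section
/-!
# `r = p = 2`
-/

set_option autoImplicit false

namespace Cfsg.Agent.H958

open Module QuadraticMap Cfsg.Agent.LieClassical.OrthCore Cfsg.Agent.LieClassical.OrthTrans
  Cfsg.Agent.H955 Cfsg.Agent.LieClassical.OrthFinite
open scoped MatrixGroups Matrix

universe u v
variable {F : Type u} [Field F] [Finite F]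
  {V : Type v} [AddCommGroup V] [Module F V] [FiniteDimensional F V] {Q : QuadraticForm F V}

/-- the positive part in characteristic two -/
theorem two_two (h2 : (2 : F) = 0) (hQ : Nondeg Q) {d : ℕ} (hd : finrank F V = 2 * d)
    {W₀ : Submodule F V} (hW₀ : Nondeg (res Q W₀)) {s : ℕ} (hWd : finrank F W₀ = 2 * s) (hs0 : 0 < s)
    (hs : s < d) (h : (IsPlus Q ∧ IsPlus (res Q W₀) ∧ (Odd d ∨ Even s)) ∨
      (¬ IsPlus Q ∧ ¬ IsPlus (res Q W₀) ∧ (Even d ∨ Odd s))) :
    (∀ T ∈ E Q, ((∀ v, T (T v) = v) ∨ (∀ v, T (T v) = -v)) → (∀ z : F, ¬ ∀ v, T v = z • v) →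
      ∃ g ∈ O Q, ∀ v ∈ W₀.map (g : V →ₗ[F] V), T v ∈ W₀.map (g : V →ₗ[F] V)) := by
  intro T hT hTT _
  have hTO := E_le_O hT
  have hTT' : ∀ v, T (T v) = v := by
    rcases hTT with h1 | h1
    · exact h1
    · intro v
      rw [h1, neg_eq_self' h2]
  suffices hW : ∃ W : Submodule F V, (∀ v ∈ W, T v ∈ W) ∧ Nondeg (res Q W) ∧ finrank F W = 2 * s ∧
      (IsPlus (res Q W) ↔ IsPlus (res Q W₀)) by
    obtain ⟨W, hWT, hW, hWd', hWp⟩ := hW
    obtain ⟨g, hg, rfl⟩ := (class_even hQ hW₀ (by rw [hWd]; exact even_two_mul s) W).1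
      ⟨by rw [hWd', hWd], hW, hWp⟩
    exact ⟨g, hg, hWT⟩
  by_cases hβ : ∃ v, polar Q v (T v) ≠ 0
  · exact charTwo_inv h2 s hQ (by rw [hd]; exact even_two_mul d) hTO hTT' hβ hs0 (by omega) _
  · push Not at hβ
    have hJ := isJTwo_of_beta h2 hTO hTT' hβ
    rcases h with ⟨h1, h3, h4⟩ | ⟨h1, h3, h4⟩
    · obtain ⟨W, g1, g2, g3, g4⟩ := jtwo_plus hQ hd hJ h1 hs h4
      exact ⟨W, g1, g2, g3, by rw [g4]; exact ⟨fun _ => h3, fun _ => trivial⟩⟩
    · obtain ⟨W, g1, g2, g3, g4⟩ := jtwo_minus hQ hd hJ h1 hs0 hs h4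
      exact ⟨W, g1, g2, g3, by rw [g4]; exact ⟨False.elim, fun h => h3 h⟩⟩

end Cfsg.Agent.H958
end
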